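import Cfsg.Agent.Lib.McLMult.Elements
import Cfsg.Agent.Lib.SchurMult.TransferCover

/-!
Pairs of an element of `SU₆(2)` and an automorphism of the lattice inducing the same permutation of
the listed minimal vectors: over the stabiliser of a point in McL they form a central extension of
order `3`.
-/

set_option autoImplicit false
set_option maxRecDepth 100000

namespace CfsgLib.McLMult

open Cfsg MulAction CfsgLib.Leech CfsgLib.Fischer2 CfsgLib.ClassicalForms CfsgLib.SchurMult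
open CfsgLib.GolayStructure hiding tblAt imgMask
open scoped Pointwise commutatorElement

/-- The matrices of the six transvections. -/
def mat6 : ℕ → List (List ℤ)
  | 0 => Cert.UnitarySix.mat0
  | 1 => Cert.UnitarySix.mat1
  | 2 => Cert.UnitarySix.mat2
  | 3 => Cert.UnitarySix.mat3
  | 4 => Cert.UnitarySix.mat4
  | _ => Cert.UnitarySix.mat5

theorem mat6_ok : ∀ i, matOk (mat6 i) = true
  | 0 => Cert.UnitarySix.ok0
  | 1 => Cert.UnitarySix.ok1
  | 2 => Cert.UnitarySix.ok2
  | 3 => Cert.UnitarySix.ok3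
  | 4 => Cert.UnitarySix.ok4
  | _ + 5 => Cert.UnitarySix.ok5

/-- The automorphisms of the lattice of the six transvections. -/
noncomputable def g6 (i : ℕ) : Co0 := matAut (mat6 i) (mat6_ok i)

theorem g6_mem : ∀ i, g6 i ∈ fixGroup [baseSixW, baseSixV]
  | 0 => fix_six _ Cert.UnitarySix.fix0_listV Cert.UnitarySix.fix0_listW
  | 1 => fix_six _ Cert.UnitarySix.fix1_listV Cert.UnitarySix.fix1_listW
  | 2 => fix_six _ Cert.UnitarySix.fix2_listV Cert.UnitarySix.fix2_listW
  | 3 => fix_six _ Cert.UnitarySix.fix3_listV Cert.UnitarySix.fix3_listW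
  | 4 => fix_six _ Cert.UnitarySix.fix4_listV Cert.UnitarySix.fix4_listW
  | _ + 5 => fix_six _ Cert.UnitarySix.fix5_listV Cert.UnitarySix.fix5_listW

variable {F : Type} [Field F] [Fintype F]

/-- The correspondence of an element of `SU₆(2)` with an automorphism. -/
abbrev Comp (C : Coded ops4 F 2) (s : Cfsg.SU 6 F 2) (g : Co0) : Prop :=
  Compatible C 891 Cert.UnitarySix.bas Cert.UnitarySix.K s g

/-- The transvections. -/
structure Tv (C : Coded ops4 F 2) (t : ℕ → Cfsg.SU 6 F 2) : Prop where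
  act : ∀ i < 6, ∀ x, suAct (t i) x = x +
    (C.val 1 * Cfsg.hermForm 6 F 2 x (C.vec 6 (Cert.UnitarySix.pt i))) • C.vec 6 (Cert.UnitarySix.pt i)
  comp : ∀ i < 6, Comp C (t i) (g6 i)

theorem exists_tvs (hF : Fintype.card F = 4) (C : Coded ops4 F 2) : ∃ t, Tv C t := by
  have hF2 : Fintype.card F = 2 ^ 2 := by rw [hF]; norm_num
  have hc : (1 : ℕ) < ops4.K := by decide
  have htv : ∀ i, ∃ t : Cfsg.SU 6 F 2, i < 6 → ∀ x, suAct t x = x +
      (C.val 1 * Cfsg.hermForm 6 F 2 x (C.vec 6 (Cert.UnitarySix.pt i))) •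
        C.vec 6 (Cert.UnitarySix.pt i) := by
    intro i
    by_cases hi : i < 6
    · have hp : ops4.herm 6 (Cert.UnitarySix.pt i) (Cert.UnitarySix.pt i) = 0 :=
        (show ∀ i < 6, ops4.herm 6 (Cert.UnitarySix.pt i) (Cert.UnitarySix.pt i) = 0 by
          decide +kernel) i hi
      obtain ⟨t, ht⟩ := exists_tv C hF2 hc hp (by decide +kernel)
      exact ⟨t, fun _ => ht⟩
    · exact ⟨1, fun h => absurd h hi⟩
  choose t ht using htv
  refine ⟨t, ht, fun i hi => ?_⟩
  open Cert.UnitarySix in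
  interval_cases i
  · exact compatible_gen C hc ok0 dataOk0 perm0 (ht 0 hi)
  · exact compatible_gen C hc ok1 dataOk1 perm1 (ht 1 hi)
  · exact compatible_gen C hc ok2 dataOk2 perm2 (ht 2 hi)
  · exact compatible_gen C hc ok3 dataOk3 perm3 (ht 3 hi)
  · exact compatible_gen C hc ok4 dataOk4 perm4 (ht 4 hi)
  · exact compatible_gen C hc ok5 dataOk5 perm5 (ht 5 hi)

variable {C : Coded ops4 F 2} {t : ℕ → Cfsg.SU 6 F 2}

/-- The compatible pairs. -/
noncomputable def pairs (C : Coded ops4 F 2) : Subgroup (Co0 × Cfsg.SU 6 F 2) :=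
  haveI := finite_Co0
  { carrier := {x | Comp C x.2 x.1}
    one_mem' := Compatible.one
    mul_mem' := fun hx hy => hx.mul hy
    inv_mem' := fun {x} hx => by
      have hpow : ∀ n : ℕ, Comp C (x ^ n).2 (x ^ n).1 := by
        intro n
        induction n with
        | zero => exact Compatible.one
        | succ n ih => rw [pow_succ]; exact ih.mul hx
      obtain ⟨n, hn⟩ := (mem_powers_iff_mem_zpowers (x := x)).2
        (Subgroup.inv_mem _ (Subgroup.mem_zpowers x))
      show Comp C (x⁻¹).2 (x⁻¹).1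
      rw [← hn]
      exact hpow n }

theorem mem_pairs {x : Co0 × Cfsg.SU 6 F 2} : x ∈ pairs C ↔ Comp C x.2 x.1 := Iff.rfl

theorem closure_t (hF : Fintype.card F = 4) (ht : Tv C t) : Subgroup.closure (t '' Set.Iio 6) = ⊤ := by
  have hp0 : C.vec 6 (Cert.UnitarySix.pt 0) ≠ 0 := by
    intro h
    have e : ∃ j : Fin 6, Cert.UnitarySix.pt 0 / ops4.K ^ (j : ℕ) % ops4.K ≠ 0 := by decide +kernel
    obtain ⟨j, hj⟩ := e
    exact hj (C.inj _ (C.mod_lt _) _ C.pos (by rw [C.val_zero]; exact congrFun h j))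
  exact closure_tv_eq_top C (by rw [hF]; norm_num) (by norm_num) t (by norm_num) (by decide) ht.act
    (by decide +kernel) (by decide +kernel) hp0 Cert.UnitarySix.cover Cert.UnitarySix.tree (by decide +kernel)

theorem exists_comp (hF : Fintype.card F = 4) (ht : Tv C t) (r : Cfsg.SU 6 F 2) :
    ∃ g ∈ fixGroup [baseSixW, baseSixV], Comp C r g := by
  let W : Subgroup (Co0 × Cfsg.SU 6 F 2) :=
    pairs C ⊓ (fixGroup [baseSixW, baseSixV]).prod ⊤
  have h : ⊤ ≤ W.map (MonoidHom.snd _ _) := by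
    rw [← closure_t hF ht, Subgroup.closure_le]
    rintro _ ⟨i, hi, rfl⟩
    exact ⟨(g6 i, t i), ⟨ht.comp i hi, g6_mem i, trivial⟩, rfl⟩
  obtain ⟨x, ⟨hx, hx1, -⟩, rfl⟩ := h (Subgroup.mem_top r)
  exact ⟨x.1, hx1, hx⟩

/-- An element corresponding to the identity is central. -/
theorem mem_center_of_comp_one (hF : Fintype.card F = 4) (ht : Tv C t) {s : Cfsg.SU 6 F 2}
    (hs : Comp C s 1) : s ∈ Subgroup.center (Cfsg.SU 6 F 2) := by
  classical
  have hF2 : Fintype.card F = 2 ^ 2 := by rw [hF]; norm_num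
  let N : Subgroup (Cfsg.SU 6 F 2) := (pairs C).comap (MonoidHom.inr Co0 _)
  have hNn : N.Normal := ⟨fun n hn r => by
    obtain ⟨g, -, hg⟩ := exists_comp hF ht r
    have hgr : (g, r) ∈ pairs C := hg
    have := (pairs C).mul_mem ((pairs C).mul_mem hgr hn) ((pairs C).inv_mem hgr)
    rw [MonoidHom.inr_apply, Prod.inv_mk, Prod.mk_mul_mk, Prod.mk_mul_mk, mul_one, mul_inv_cancel] at this
    exact this⟩
  have hNfix : ∀ n ∈ N, ∀ i < 891, ∀ x ∈ planeSpan C 6 (Cert.UnitarySix.bas i),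
      suAct n x ∈ planeSpan C 6 (Cert.UnitarySix.bas i) := by
    intro n hn i hi
    obtain ⟨j, hj, h1, h2⟩ := (show Comp C n 1 from hn) i hi
    have hk' := List.all_eq_true.1 Cert.UnitarySix.keys i (List.mem_range.2 hi)
    simp only [Bool.and_eq_true] at hk'
    obtain ⟨x, hx, hxk⟩ := exists_of_keyOk hk'.1
    have h3 := h2 x hx hxk
    rw [one_smul, hxk] at h3
    obtain rfl := eq_of_keysOk Cert.UnitarySix.keys hi hj h3
    exact h1
  have htop : N ≠ ⊤ := by
    intro e
    have hmove := Cert.UnitarySix.move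
    simp only [CfsgLib.Leech.moveOk, Bool.and_eq_true, List.any_eq_true, List.all_eq_true, beq_iff_eq,
      bne_iff_ne] at hmove
    obtain ⟨⟨⟨⟨ea, hea, hea'⟩, -⟩, horth⟩, hne⟩ := hmove
    have hmem := hNfix (t 0) (e ▸ Subgroup.mem_top _) 0 (by norm_num) (C.vec 6 ea.2)
      (Submodule.subset_span ⟨ea, hea, rfl⟩)
    obtain ⟨σ⟩ := exists_conj (F := F) (q := 2) (by rw [Nat.card_eq_fintype_card, hF2])
    have hzero : ∀ y ∈ planeSpan C 6 (Cert.UnitarySix.bas 0),
        Cfsg.hermForm 6 F 2 y (C.vec 6 3457) = 0 := by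
      intro y hy
      induction hy using Submodule.span_induction with
      | mem z hz =>
        obtain ⟨e', he', rfl⟩ := hz
        rw [C.herm_vec, horth e' he', C.val_zero]
      | zero => exact σ.zero_left _
      | add z w _ _ hz hw => rw [σ.add_left, hz, hw, add_zero]
      | smul a z _ hz => rw [σ.smul_left, hz, mul_zero]
    have hc : (1 : ℕ) < ops4.K := by decide
    refine hne (C.inj _ (C.herm_lt ..) _ C.pos ?_)
    rw [← C.herm_vec, C.val_zero]
    refine hzero _ ?_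
    rw [← hea']
    convert hmem using 1
    rw [ht.act 0 (by norm_num), Ops.trans, C.vec_vadd, C.vec_vsmul (C.ml_lt hc (C.herm_lt ..)),
      C.val_ml _ hc _ (C.herm_lt ..), C.herm_vec]
  have := isSimpleGroup_psu (F := F) (n := 6) (q := 2) hF2 (by norm_num) (fun h => by simp at h)
  rcases (hNn.map (QuotientGroup.mk' (Subgroup.center (Cfsg.SU 6 F 2)))
    (QuotientGroup.mk'_surjective _)).eq_bot_or_eq_top with h | h
  · rw [Subgroup.map_eq_bot_iff, QuotientGroup.ker_mk'] at h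
    exact h hs
  · exfalso
    refine htop (eq_top_iff.2 ?_)
    rw [← commutator_su_eq_top (F := F) (n := 6) (q := 2) hF2 (by norm_num) (fun h => by simp at h),
      commutator_def, Subgroup.commutator_le]
    intro x _ y _
    have key : ∀ x : Cfsg.SU 6 F 2, ∃ a ∈ N, ∃ z ∈ Subgroup.center (Cfsg.SU 6 F 2), x = a * z := by
      intro x
      obtain ⟨a, ha, hax⟩ : QuotientGroup.mk' (Subgroup.center _) x ∈
          N.map (QuotientGroup.mk' (Subgroup.center (Cfsg.SU 6 F 2))) := h ▸ Subgroup.mem_top _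
      exact ⟨a, ha, a⁻¹ * x, QuotientGroup.eq.1 hax, by group⟩
    obtain ⟨a, ha, z, hz, rfl⟩ := key x
    obtain ⟨a', ha', z', hz', rfl⟩ := key y
    have c1 := fun w => Subgroup.mem_center_iff.1 hz w
    have c2 := fun w => Subgroup.mem_center_iff.1 hz' w
    have e : ⁅a * z, a' * z'⁆ = a * a' * a⁻¹ * a'⁻¹ := by
      simp only [commutatorElement_def, mul_inv_rev]
      rw [show a * z * (a' * z') * (z⁻¹ * a⁻¹) * (z'⁻¹ * a'⁻¹) =
        a * (z * (a' * z')) * z⁻¹ * a⁻¹ * z'⁻¹ * a'⁻¹ by group, ← c1, mul_assoc a,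
        mul_assoc (a' * z'), mul_inv_cancel, mul_one, ← mul_assoc a a' z',
        mul_assoc (a * a') z' a⁻¹, ← c2 a⁻¹]
      group
    rw [e]
    exact mul_mem (mul_mem (mul_mem ha ha') (inv_mem ha)) (inv_mem ha')

/-- Every element of the pair stabiliser corresponds to some element of `SU₆(2)`. -/
theorem exists_lift (hF : Fintype.card F = 4) (ht : Tv C t) {g : Co0}
    (hg : g ∈ fixGroup [baseSixW, baseSixV]) : ∃ s, Comp C s g := by
  classical
  haveI := finite_Co0
  have hFn : Nat.card F = 2 ^ 2 := by rw [Nat.card_eq_fintype_card, hF]; norm_num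
  let W : Subgroup (Co0 × Cfsg.SU 6 F 2) := pairs C ⊓ (fixGroup [baseSixW, baseSixV]).prod ⊤
  let p : W →* Co0 := (MonoidHom.fst _ _).comp W.subtype
  have hle : p.range ≤ fixGroup [baseSixW, baseSixV] := by rintro _ ⟨x, rfl⟩; exact x.2.2.1
  have hW : Nat.card (Cfsg.SU 6 F 2) ≤ Nat.card W :=
    Nat.card_le_card_of_surjective (fun x : W => (x : Co0 × Cfsg.SU 6 F 2).2) fun r => by
      obtain ⟨g, hg, hc⟩ := exists_comp hF ht r
      exact ⟨⟨(g, r), hc, hg, trivial⟩, rfl⟩
  have hker : Nat.card p.ker ≤ Nat.card (Subgroup.center (Cfsg.SU 6 F 2)) := by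
    refine Nat.card_le_card_of_injective (fun x => ⟨((x : W) : Co0 × Cfsg.SU 6 F 2).2, ?_⟩) fun x y h => ?_
    · refine mem_center_of_comp_one hF ht ?_
      have h1 : ((x : W) : Co0 × Cfsg.SU 6 F 2).1 = 1 := x.2
      have h2 : Comp C ((x : W) : Co0 × Cfsg.SU 6 F 2).2 ((x : W) : Co0 × Cfsg.SU 6 F 2).1 := (x : W).2.1
      rw [h1] at h2
      exact h2
    · have h' : ((x : W) : Co0 × Cfsg.SU 6 F 2).2 = ((y : W) : Co0 × Cfsg.SU 6 F 2).2 :=
        congrArg Subtype.val h
      exact Subtype.ext (Subtype.ext (Prod.ext (x.2.trans y.2.symm) h'))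
  have hq : Nat.card (Cfsg.SU 6 F 2) =
      Nat.card (Cfsg.PSU 6 F 2) * Nat.card (Subgroup.center (Cfsg.SU 6 F 2)) :=
    Subgroup.card_eq_card_quotient_mul_card_subgroup _
  have hW2 : Nat.card W = Nat.card p.range * Nat.card p.ker := by
    rw [← Subgroup.index_ker p, mul_comm, Subgroup.card_mul_index]
  have hfix : Nat.card (fixGroup [baseSixW, baseSixV]) = Nat.card (Cfsg.PSU 6 F 2) := by
    rw [natCard_fix_pair baseSix_spec.1 baseSix_spec.2.1 baseSix_spec.2.2, natCard_psu_six hF]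
  have hpos : 0 < Nat.card (Subgroup.center (Cfsg.SU 6 F 2)) := Nat.card_pos
  have hrange : Nat.card (fixGroup [baseSixW, baseSixV]) ≤ Nat.card p.range := by
    refine Nat.le_of_mul_le_mul_right ?_ hpos
    rw [hfix, ← hq]
    exact hW.trans (hW2 ▸ Nat.mul_le_mul_left _ hker)
  have heq := Subgroup.eq_of_le_of_card_ge hle hrange
  rw [← heq] at hg
  obtain ⟨x, hx⟩ := hg
  refine ⟨(x : Co0 × Cfsg.SU 6 F 2).2, ?_⟩
  have h2 : Comp C (x : Co0 × Cfsg.SU 6 F 2).2 (x : Co0 × Cfsg.SU 6 F 2).1 := x.2.1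
  rw [show (x : Co0 × Cfsg.SU 6 F 2).1 = g from hx] at h2
  exact h2

end CfsgLib.McLMult
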