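import Cfsg.Agent.Lib.SchurMult.Reduce
import Cfsg.Agent.Lib.SchurMult.SmallSylow

/-!
A Sylow `3`-subgroup `⟨f, u, v⟩` of shape `3⁴ : 3²` containing an extraspecial group
`⟨u, v, a, b, e⟩`: with three fusions in the extraspecial group the kernel of a stem extension has
cyclic `3`-part of order at most `3`.
-/

set_option autoImplicit false

namespace CfsgLib.McLMult

open Subgroup CfsgLib.SchurMult
open scoped commutatorElement

universe w

variable {G : Type w} [Group G] [Finite G] {Γ : Type w} [Group Γ] [Finite Γ] {σ : Γ →* G}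

/-- Two elements commute and some element acts on their span with determinant different from `1`. -/
def PairOk (x y : G) : Prop :=
  Commute x y ∧ ∃ (h : G) (a b c d : ℕ), h * x * h⁻¹ = x ^ a * y ^ b ∧ h * y * h⁻¹ = x ^ c * y ^ d ∧
    (a * d + 2 * (b * c)) % 3 ≠ 1

/-- A word in the four generators of the extraspecial group. -/
def word4 {H : Type w} [Group H] (u v a b : H) (q : ℕ × ℕ × ℕ × ℕ) : H :=
  u ^ q.1 * v ^ q.2.1 * a ^ q.2.2.1 * b ^ q.2.2.2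

/-- The five exponents of a commutator of two words. -/
def bexp (q q' : ℕ × ℕ × ℕ × ℕ) : Fin 5 → ℕ :=
  ![q.1 * q'.2.2.1 + q.2.1 * q'.2.2.2 + 2 * (q'.1 * q.2.2.1) + 2 * (q'.2.1 * q.2.2.2),
    q.1 * q'.2.2.2 + 2 * (q'.1 * q.2.2.2),
    q.2.1 * q'.2.2.1 + 2 * (q'.2.1 * q.2.2.1),
    q.2.1 * q'.2.2.2 + 2 * (q'.2.1 * q.2.2.2),
    q.1 * q'.2.1 + 2 * (q'.1 * q.2.1)]

/-- The relations needed. -/
structure ThreeData (z f a b e u v : G) : Prop where
  z2 : z * z = 1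
  zu : z * u * z⁻¹ = u⁻¹
  zv : z * v * z⁻¹ = v⁻¹
  za : z * a * z⁻¹ = a⁻¹
  zb : z * b * z⁻¹ = b⁻¹
  zf : Commute z f
  ze : Commute z e
  u3 : u ^ 3 = 1
  v3 : v ^ 3 = 1
  a3 : a ^ 3 = 1
  b3 : b ^ 3 = 1
  f3 : f ^ 3 = 1
  e3 : e ^ 3 = 1
  uv : Commute u v
  ub : Commute u b
  va : Commute v a
  ue : Commute u e
  ve : Commute v e
  ua : u * a * u⁻¹ = e * a
  vb : v * b * v⁻¹ = e * b
  uf : ∃ r : ℕ, u * f * u⁻¹ = f * (a * e ^ r)
  vf : ∃ r : ℕ, v * f * v⁻¹ = f * (b * e ^ r)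
  fa : PairOk f a
  fb : PairOk f b
  fe : PairOk f e
  ab : PairOk a b
  ae : PairOk a e
  be : PairOk b e
  fusA : ∃ (h : G) (X Y : ℕ × ℕ × ℕ × ℕ) (i j : ℕ), h * u * h⁻¹ = word4 u v a b X * e ^ i ∧
    h * b * h⁻¹ = word4 u v a b Y * e ^ j ∧ (fun k => bexp X Y k % 3) = ![0, 1, 2, 1, 0]
  fusB : ∃ (h : G) (X Y : ℕ × ℕ × ℕ × ℕ) (i j : ℕ), h * v * h⁻¹ = word4 u v a b X * e ^ i ∧
    h * a * h⁻¹ = word4 u v a b Y * e ^ j ∧ (fun k => bexp X Y k % 3) = ![0, 2, 1, 1, 0]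
  fusC : ∃ (h : G) (X Y : ℕ × ℕ × ℕ × ℕ) (i j : ℕ), h * (u * v) * h⁻¹ = word4 u v a b X * e ^ i ∧
    h * (a * b ^ 2) * h⁻¹ = word4 u v a b Y * e ^ j ∧ (fun k => bexp X Y k % 3) = ![0, 1, 0, 2, 1]
  indep : ∀ i j k : Fin 3, a ^ (i : ℕ) * b ^ (j : ℕ) * e ^ (k : ℕ) = 1 → i = 0 ∧ j = 0 ∧ k = 0

omit [Finite G] [Finite Γ] in
theorem eq_one_of_cube_sq {k : Γ} (h3 : k ^ 3 = 1) (h2 : k * k = 1) : k = 1 := by
  rw [show (3 : ℕ) = 2 + 1 from rfl, pow_succ, pow_two, h2, one_mul] at h3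
  exact h3

omit [Finite G] [Finite Γ] in
theorem exists_inverted_lift (hc : σ.ker ≤ Subgroup.center Γ) (hs : Function.Surjective σ) {Z : Γ} {x : G}
    (hx : x ^ 3 = 1) (hzx : σ Z * x * (σ Z)⁻¹ = x⁻¹) :
    ∃ X : Γ, σ X = x ∧ X ^ 3 = 1 ∧ Z * X * Z⁻¹ = X⁻¹ := by
  obtain ⟨L, hL⟩ := hs (x ^ 2)
  have hk : L * (Z * L * Z⁻¹) ∈ σ.ker := by
    rw [MonoidHom.mem_ker, map_mul, map_mul, map_mul, map_inv, hL, ← conj_pow, hzx, inv_pow, mul_inv_cancel]
  set k := L * (Z * L * Z⁻¹) with hkdef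
  have cen : ∀ g, g * k = k * g := fun g => ker_comm hc hk g
  have hconj : Z * L * Z⁻¹ = L⁻¹ * k := by rw [hkdef, inv_mul_cancel_left]
  clear_value k
  have hX : ⁅L, Z⁆ = L ^ 2 * k⁻¹ := by
    calc ⁅L, Z⁆ = L * (Z * L * Z⁻¹)⁻¹ := by rw [commutatorElement_def]; group
      _ = L * (k⁻¹ * L) := by rw [hconj]; group
      _ = _ := by rw [(Commute.inv_right (cen L)).symm.eq, pow_two, mul_assoc]
  have hLk : Commute L k := cen L
  have hsig : σ ⁅L, Z⁆ = x := by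
    rw [map_commutatorElement, hL, commutatorElement_def,
      show x ^ 2 * σ Z * (x ^ 2)⁻¹ * (σ Z)⁻¹ = x ^ 2 * (σ Z * x ^ 2 * (σ Z)⁻¹)⁻¹ by group,
      ← conj_pow, hzx, inv_pow, inv_inv, ← pow_add, pow_succ, hx, one_mul]
  have hinv : Z * ⁅L, Z⁆ * Z⁻¹ = (⁅L, Z⁆)⁻¹ := by
    calc Z * ⁅L, Z⁆ * Z⁻¹ = (Z * L * Z⁻¹) ^ 2 * (Z * k⁻¹ * Z⁻¹) := by
          rw [hX]; simp only [pow_two]; group
      _ = (L⁻¹ * k) ^ 2 * k⁻¹ := by
          rw [hconj, (Commute.inv_right (cen Z)).eq, mul_inv_cancel_right]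
      _ = (L ^ 2 * k⁻¹)⁻¹ := by
          rw [hLk.inv_left.mul_pow, mul_inv_rev, inv_inv, inv_pow, mul_assoc, pow_two k,
            mul_inv_cancel_right, ← inv_pow]
          exact hLk.inv_left.pow_left 2
      _ = _ := by rw [hX]
  refine ⟨⁅L, Z⁆, hsig, ?_, hinv⟩
  have hm : (⁅L, Z⁆) ^ 3 ∈ σ.ker := by rw [MonoidHom.mem_ker, map_pow, hsig, hx]
  have h1 : Z * (⁅L, Z⁆) ^ 3 * Z⁻¹ = (⁅L, Z⁆) ^ 3 := by
    rw [ker_comm hc hm Z, mul_inv_cancel_right]
  rw [← conj_pow, hinv, inv_pow] at h1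
  have h2 : (⁅L, Z⁆) ^ 3 * (⁅L, Z⁆) ^ 3 = 1 := by
    nth_rewrite 1 [← h1]; exact inv_mul_cancel _
  -- the cube is killed by two, and its cube root `L² k⁻¹` forces it to be trivial
  have hL3 : L ^ 3 ∈ σ.ker := by
    rw [MonoidHom.mem_ker, map_pow, hL, ← pow_mul, show 2 * 3 = 3 * 2 from rfl, pow_mul, hx, one_pow]
  have h3 : Z * L ^ 3 * Z⁻¹ = L ^ 3 := by rw [ker_comm hc hL3 Z, mul_inv_cancel_right]
  rw [← conj_pow, hconj, hLk.inv_left.mul_pow, inv_pow] at h3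
  have h4 : k ^ 3 = L ^ 3 * L ^ 3 := by
    calc k ^ 3 = L ^ 3 * ((L ^ 3)⁻¹ * k ^ 3) := by group
      _ = _ := by rw [h3]
  rw [hX, (hLk.inv_right.pow_left 2).mul_pow, ← pow_mul, inv_pow, h4, show (2 * 3 : ℕ) = 3 + 3 from rfl,
    pow_add, mul_inv_cancel]

variable {U W A B E k1 k2 k3 c : Γ}

/-- A product of powers of the five commutator values. -/
def tval (E k1 k2 k3 c : Γ) (n : Fin 5 → ℕ) : Γ :=
  E ^ n 0 * k1 ^ n 1 * k2 ^ n 2 * k3 ^ n 3 * c ^ n 4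

/-- The local bound. -/
theorem three_bound (hσ : Cfsg.IsStemExtension σ) {z f a b e u v : G} (d : ThreeData z f a b e u v) :
    ∃ γ : Γ, γ ^ 3 = 1 ∧ ∀ p ∈ ⁅(Subgroup.closure {f, u, v}).comap σ, (Subgroup.closure {f, u, v}).comap σ⁆,
      p ∈ σ.ker → p ∈ Subgroup.zpowers γ := by
  have hc := hσ.2.1
  have cen : ∀ {k : Γ}, k ∈ σ.ker → ∀ g : Γ, Commute k g := fun hk g => (ker_comm hc hk g).symm
  obtain ⟨Z, hZ⟩ := hσ.1 z
  obtain ⟨F, hF⟩ := hσ.1 f
  obtain ⟨U, hU, hU3, hZU⟩ := exists_inverted_lift hc hσ.1 (Z := Z) d.u3 (by rw [hZ]; exact d.zu)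
  obtain ⟨W, hW, hW3, hZW⟩ := exists_inverted_lift hc hσ.1 (Z := Z) d.v3 (by rw [hZ]; exact d.zv)
  obtain ⟨A, hA, hA3, hZA⟩ := exists_inverted_lift hc hσ.1 (Z := Z) d.a3 (by rw [hZ]; exact d.za)
  obtain ⟨B, hB, hB3, hZB⟩ := exists_inverted_lift hc hσ.1 (Z := Z) d.b3 (by rw [hZ]; exact d.zb)
  set E := ⁅U, A⁆ with hEdef
  have hE : σ E = e := by
    rw [hEdef, map_commutatorElement, hU, hA, commutatorElement_def, d.ua, mul_inv_cancel_right]
  -- lifts of the elementary abelian subgroup commute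
  have lifts : ∀ {X Y : Γ} {x y : G}, σ X = x → σ Y = y → PairOk x y → x ^ 3 = 1 → Commute X Y :=
    fun hX hY hp hx => by
      obtain ⟨hxy, h, p, q, r, s, e1, e2, e3⟩ := hp
      exact commutatorElement_eq_one_iff_mul_comm.1 (comm_eq_one_of_det hc hσ.1 (by rw [hX, hY]; exact hxy)
        (by rw [hX]; exact hx) (by rw [hX, hY]; exact e1) (by rw [hX, hY]; exact e2) e3)
  have cFA := lifts hF hA d.fa d.f3
  have cFB := lifts hF hB d.fb d.f3
  have cFE := lifts hF hE d.fe d.f3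
  have cAB := lifts hA hB d.ab d.a3
  have cAE := lifts hA hE d.ae d.a3
  have cBE := lifts hB hE d.be d.b3
  have hUA : U * A * U⁻¹ = E * A := by rw [hEdef, commutatorElement_def]; group
  have hE3 : E ^ 3 = 1 := by
    have h : (E * A) ^ 3 = 1 := by rw [← hUA, conj_pow, hA3, mul_one, mul_inv_cancel]
    rwa [cAE.symm.mul_pow, hA3, mul_one] at h
  -- `E` is fixed by `Z` and commutes with `U` and `W`
  have hZ2 : Z * Z ∈ σ.ker := by rw [MonoidHom.mem_ker, map_mul, hZ, d.z2]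
  have cube_k : ∀ {P : Γ}, P ^ 3 = 1 → σ P * e * (σ P)⁻¹ = e → (⁅P, E⁆) ∈ σ.ker ∧ (⁅P, E⁆) ^ 3 = 1 :=
    fun {P} hP he => by
      have hm : ⁅P, E⁆ ∈ σ.ker := by
        rw [MonoidHom.mem_ker, map_commutatorElement, hE, commutatorElement_def, he, mul_inv_cancel]
      refine ⟨hm, ?_⟩
      have h1 : P * E * P⁻¹ = ⁅P, E⁆ * E := by rw [commutatorElement_def]; group
      have h2 : (⁅P, E⁆ * E) ^ 3 = 1 := by rw [← h1, conj_pow, hE3, mul_one, mul_inv_cancel]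
      rwa [(cen hm E).mul_pow, hE3, mul_one] at h2
  have hue : σ U * e * (σ U)⁻¹ = e := by rw [hU, d.ue.eq, mul_inv_cancel_right]
  obtain ⟨hkU, hkU3⟩ := cube_k hU3 hue
  have hUAinv : U⁻¹ * A * U = (⁅U, E⁆) * E⁻¹ * A := by
    have h1 : A = U⁻¹ * E * U * (U⁻¹ * A * U) := by
      calc A = U⁻¹ * (U * A * U⁻¹) * U := by group
        _ = U⁻¹ * (E * A) * U := by rw [hUA]
        _ = _ := by group
    have h2 : U⁻¹ * E * U = (⁅U, E⁆)⁻¹ * E := by
      calc U⁻¹ * E * U = U⁻¹ * ((⁅U, E⁆)⁻¹ * (⁅U, E⁆ * E)) * U := by group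
        _ = U⁻¹ * ((⁅U, E⁆)⁻¹ * (U * E * U⁻¹)) * U := by rw [commutatorElement_def]; group
        _ = (⁅U, E⁆)⁻¹ * U⁻¹ * (U * E * U⁻¹) * U := by
            rw [← mul_assoc U⁻¹, (cen (inv_mem hkU) U⁻¹).symm.eq]
        _ = _ := by group
    rw [h2] at h1
    have h3 : U⁻¹ * A * U = E⁻¹ * ⁅U, E⁆ * A := by
      calc U⁻¹ * A * U = ((⁅U, E⁆)⁻¹ * E)⁻¹ * ((⁅U, E⁆)⁻¹ * E * (U⁻¹ * A * U)) := by group
        _ = ((⁅U, E⁆)⁻¹ * E)⁻¹ * A := by rw [← h1]
        _ = _ := by group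
    rw [h3, (cen hkU E⁻¹).symm.eq]
  have hZE : Z * E * Z⁻¹ = E * (⁅U, E⁆)⁻¹ := by
    calc Z * E * Z⁻¹ = ⁅Z * U * Z⁻¹, Z * A * Z⁻¹⁆ := by
          rw [hEdef, commutatorElement_def, commutatorElement_def]; group
      _ = (U⁻¹ * A * U)⁻¹ * A := by rw [hZU, hZA, commutatorElement_def]; group
      _ = A⁻¹ * (E * (⁅U, E⁆)⁻¹) * A := by rw [hUAinv]; simp only [mul_inv_rev, inv_inv, mul_assoc]
      _ = _ := by
          rw [(show Commute A⁻¹ (E * (⁅U, E⁆)⁻¹) from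
            (cAE.inv_left.mul_right (cen (inv_mem hkU) A⁻¹).symm)).eq, inv_mul_cancel_right]
  have hkU1 : ⁅U, E⁆ = 1 := by
    refine eq_one_of_cube_sq hkU3 ?_
    have h2 : Z * (Z * E * Z⁻¹) * Z⁻¹ = E := by
      rw [show Z * (Z * E * Z⁻¹) * Z⁻¹ = (Z * Z) * E * (Z * Z)⁻¹ by group, (cen hZ2 E).eq, mul_inv_cancel_right]
    rw [hZE] at h2
    have h3 : Z * (E * (⁅U, E⁆)⁻¹) * Z⁻¹ = (Z * E * Z⁻¹) * (⁅U, E⁆)⁻¹ := by
      calc Z * (E * (⁅U, E⁆)⁻¹) * Z⁻¹ = Z * E * ((⁅U, E⁆)⁻¹ * Z⁻¹) := by group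
        _ = _ := by rw [(cen (inv_mem hkU) Z⁻¹).eq]; group
    rw [h3, hZE, mul_assoc, mul_eq_left, ← mul_inv_rev, inv_eq_one] at h2
    exact h2
  have cUE : Commute U E := commutatorElement_eq_one_iff_mul_comm.1 hkU1
  rw [hkU1, inv_one, mul_one] at hZE
  have cWE : Commute W E := by
    have hve : σ W * e * (σ W)⁻¹ = e := by rw [hW, d.ve.eq, mul_inv_cancel_right]
    obtain ⟨hm, hm3⟩ := cube_k hW3 hve
    refine commutatorElement_eq_one_iff_mul_comm.1 (eq_one_of_cube_sq hm3 ?_)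
    have h1 : Z * ⁅W, E⁆ * Z⁻¹ = ⁅W⁻¹, E⁆ := by
      calc Z * ⁅W, E⁆ * Z⁻¹ = ⁅Z * W * Z⁻¹, Z * E * Z⁻¹⁆ := by
            rw [commutatorElement_def, commutatorElement_def]; group
        _ = _ := by rw [hZW, hZE]
    rw [(cen hm Z).symm.eq, mul_inv_cancel_right] at h1
    have h2 : ⁅W⁻¹, E⁆ = (⁅W, E⁆)⁻¹ := by
      calc ⁅W⁻¹, E⁆ = W⁻¹ * (⁅W, E⁆)⁻¹ * W := by rw [commutatorElement_def, commutatorElement_def]; group
        _ = _ := by rw [← (cen (inv_mem hm) W⁻¹).eq, inv_mul_cancel_right]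
    rw [h2] at h1
    nth_rewrite 1 [h1]
    exact inv_mul_cancel _
  -- the other values
  set k1 := ⁅U, B⁆ with hk1def
  set k2 := ⁅W, A⁆ with hk2def
  set c := ⁅U, W⁆ with hcdef
  set k3 := E⁻¹ * ⁅W, B⁆ with hk3def
  have mk1 : k1 ∈ σ.ker := comm_mem_ker (by rw [hU, hB]; exact d.ub)
  have mk2 : k2 ∈ σ.ker := comm_mem_ker (by rw [hW, hA]; exact d.va)
  have mc : c ∈ σ.ker := comm_mem_ker (by rw [hU, hW]; exact d.uv)
  have mk3 : k3 ∈ σ.ker := by
    rw [MonoidHom.mem_ker, hk3def, map_mul, map_inv, hE, map_commutatorElement, hW, hB,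
      commutatorElement_def, d.vb, mul_inv_cancel_right, inv_mul_cancel]
  have hWB : ⁅W, B⁆ = E * k3 := by rw [hk3def, mul_inv_cancel_left]
  have pow_comm : ∀ {p t : Γ}, Commute p ⁅p, t⁆ → ∀ n : ℕ, ⁅p ^ n, t⁆ = ⁅p, t⁆ ^ n := by
    intro p t hpt n
    induction n with
    | zero => simp
    | succ n ih =>
      calc ⁅p ^ (n + 1), t⁆ = p ^ n * ⁅p, t⁆ * (p ^ n)⁻¹ * ⁅p ^ n, t⁆ := by
            simp only [commutatorElement_def, pow_succ]; group
        _ = _ := by rw [ih, (hpt.pow_left n).eq, mul_inv_cancel_right, ← pow_succ']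
  have cube : ∀ {p t : Γ}, Commute p ⁅p, t⁆ → p ^ 3 = 1 → ⁅p, t⁆ ^ 3 = 1 := fun h hp => by
    rw [← pow_comm h, hp]; simp
  have k13 : k1 ^ 3 = 1 := cube (cen mk1 U).symm hU3
  have k23 : k2 ^ 3 = 1 := cube (cen mk2 W).symm hW3
  have c3 : c ^ 3 = 1 := cube (cen mc U).symm hU3
  have hW' : Commute W ⁅W, B⁆ := by rw [hWB]; exact cWE.mul_right (cen mk3 W).symm
  have k33 : k3 ^ 3 = 1 := by
    have h := cube hW' hW3
    rwa [hWB, (cen mk3 E).symm.mul_pow, hE3, one_mul] at h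
  let T : (Fin 5 → ℕ) → Γ := tval E k1 k2 k3 c
  have cT : ∀ {P : Γ}, Commute P E → ∀ n, Commute P (T n) := fun {P} hP n =>
    ((((hP.pow_right _).mul_right ((cen mk1 P).symm.pow_right _)).mul_right
      ((cen mk2 P).symm.pow_right _)).mul_right ((cen mk3 P).symm.pow_right _)).mul_right
      ((cen mc P).symm.pow_right _)
  have Tadd : ∀ m n, T (m + n) = T m * T n := by
    intro m n
    simp only [T, tval, Pi.add_apply, pow_add]
    have q : ∀ (k : Γ), k ∈ σ.ker → ∀ (i : ℕ) (g : Γ), Commute (k ^ i) g := fun k hk i g => cen (pow_mem hk i) g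
    calc E ^ m 0 * E ^ n 0 * (k1 ^ m 1 * k1 ^ n 1) * (k2 ^ m 2 * k2 ^ n 2) * (k3 ^ m 3 * k3 ^ n 3) *
          (c ^ m 4 * c ^ n 4)
        = E ^ m 0 * k1 ^ m 1 * E ^ n 0 * k1 ^ n 1 * k2 ^ m 2 * k2 ^ n 2 * (k3 ^ m 3 * k3 ^ n 3) *
          (c ^ m 4 * c ^ n 4) := by
          simp only [mul_assoc]
          rw [(q k1 mk1 (m 1) (E ^ n 0)).left_comm]
      _ = E ^ m 0 * k1 ^ m 1 * k2 ^ m 2 * (E ^ n 0 * k1 ^ n 1) * k2 ^ n 2 * (k3 ^ m 3 * k3 ^ n 3) *
          (c ^ m 4 * c ^ n 4) := by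
          simp only [mul_assoc]
          rw [(q k2 mk2 (m 2) (E ^ n 0)).left_comm, (q k2 mk2 (m 2) (k1 ^ n 1)).left_comm]
      _ = E ^ m 0 * k1 ^ m 1 * k2 ^ m 2 * k3 ^ m 3 * (E ^ n 0 * k1 ^ n 1 * k2 ^ n 2) * k3 ^ n 3 *
          (c ^ m 4 * c ^ n 4) := by
          simp only [mul_assoc]
          rw [(q k3 mk3 (m 3) (E ^ n 0)).left_comm, (q k3 mk3 (m 3) (k1 ^ n 1)).left_comm,
            (q k3 mk3 (m 3) (k2 ^ n 2)).left_comm]
      _ = _ := by
          simp only [mul_assoc]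
          rw [(q c mc (m 4) (E ^ n 0)).left_comm, (q c mc (m 4) (k1 ^ n 1)).left_comm,
            (q c mc (m 4) (k2 ^ n 2)).left_comm, (q c mc (m 4) (k3 ^ n 3)).left_comm]
  have Tmod : ∀ n, T n = T fun k => n k % 3 := fun n => by
    simp only [T, tval, ← pow_eq_pow_mod _ hE3, ← pow_eq_pow_mod _ k13, ← pow_eq_pow_mod _ k23,
      ← pow_eq_pow_mod _ k33, ← pow_eq_pow_mod _ c3]
  have Tzero : T 0 = 1 := by simp [T, tval]
  have Tinv : ∀ n, (T n)⁻¹ = T (2 • n) := fun n => inv_eq_of_mul_eq_one_right (by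
    rw [← Tadd, Tmod, ← Tzero]
    congr 1
    funext k
    simp only [Pi.add_apply, Pi.smul_apply, smul_eq_mul, Pi.zero_apply]
    omega)
  have T1 : T ![1, 0, 0, 0, 0] = E := by simp [T, tval]
  have T2 : T ![0, 1, 0, 0, 0] = k1 := by simp [T, tval]
  have T3 : T ![0, 0, 1, 0, 0] = k2 := by simp [T, tval]
  have T4 : T ![1, 0, 0, 1, 0] = E * k3 := by simp [T, tval]
  have T5 : T ![0, 0, 0, 0, 1] = c := by simp [T, tval]
  have swap : ∀ {p t : Γ} {n}, ⁅p, t⁆ = T n → ⁅t, p⁆ = T (2 • n) := fun h => by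
    rw [← commutatorElement_inv, h, Tinv]
  -- powers and products
  have powR : ∀ {p t : Γ} {n}, Commute t E → ⁅p, t⁆ = T n → ∀ i : ℕ, ⁅p, t ^ i⁆ = T (i • n) := by
    intro p t n ht h i
    induction i with
    | zero => simp [Tzero]
    | succ i ih =>
      calc ⁅p, t ^ (i + 1)⁆ = ⁅p, t ^ i⁆ * (t ^ i * ⁅p, t⁆ * (t ^ i)⁻¹) := by
            simp only [commutatorElement_def, pow_succ]; group
        _ = _ := by rw [ih, h, ((cT ht n).pow_left i).eq, mul_inv_cancel_right, ← Tadd, succ_nsmul]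
  have mulR : ∀ {p t s : Γ} {m n}, Commute t E → ⁅p, t⁆ = T m → ⁅p, s⁆ = T n → ⁅p, t * s⁆ = T (m + n) := by
    intro p t s m n ht h h'
    calc ⁅p, t * s⁆ = ⁅p, t⁆ * (t * ⁅p, s⁆ * t⁻¹) := by simp only [commutatorElement_def]; group
      _ = _ := by rw [h, h', (cT ht n).eq, mul_inv_cancel_right, Tadd]
  have cWd : ∀ q, Commute (word4 U W A B q) E := fun q =>
    (((cUE.pow_left _).mul_left (cWE.pow_left _)).mul_left (cAE.pow_left _)).mul_left (cBE.pow_left _)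
  have toWord : ∀ {p : Γ} {n1 n2 n3 n4 : Fin 5 → ℕ}, ⁅p, U⁆ = T n1 → ⁅p, W⁆ = T n2 → ⁅p, A⁆ = T n3 →
      ⁅p, B⁆ = T n4 → ∀ q, ⁅p, word4 U W A B q⁆ =
        T (q.1 • n1 + q.2.1 • n2 + q.2.2.1 • n3 + q.2.2.2 • n4) := by
    intro p n1 n2 n3 n4 h1 h2 h3 h4 q
    exact mulR (((cUE.pow_left _).mul_left (cWE.pow_left _)).mul_left (cAE.pow_left _))
      (mulR ((cUE.pow_left _).mul_left (cWE.pow_left _))
        (mulR (cUE.pow_left _) (powR cUE h1 _) (powR cWE h2 _)) (powR cAE h3 _)) (powR cBE h4 _)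
  have self : ∀ p : Γ, ⁅p, p⁆ = T 0 := fun p => by rw [Tzero]; simp
  have eUW : ⁅U, W⁆ = T ![0, 0, 0, 0, 1] := by rw [T5]
  have eUA : ⁅U, A⁆ = T ![1, 0, 0, 0, 0] := by rw [T1]
  have eUB : ⁅U, B⁆ = T ![0, 1, 0, 0, 0] := by rw [T2]
  have eWA : ⁅W, A⁆ = T ![0, 0, 1, 0, 0] := by rw [T3]
  have eWB : ⁅W, B⁆ = T ![1, 0, 0, 1, 0] := by rw [T4, hWB]
  have eAB : ⁅A, B⁆ = T 0 := by rw [Tzero, commutatorElement_eq_one_iff_mul_comm]; exact cAB
  have value : ∀ q q', ⁅word4 U W A B q, word4 U W A B q'⁆ = T (bexp q q') := by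
    intro q q'
    have hU' := swap (toWord (self U) eUW eUA eUB q')
    have hW' := swap (toWord (swap eUW) (self W) eWA eWB q')
    have hA' := swap (toWord (swap eUA) (swap eWA) (self A) eAB q')
    have hB' := swap (toWord (swap eUB) (swap eWB) (swap eAB) (self B) q')
    rw [← commutatorElement_inv (word4 U W A B q'), toWord hU' hW' hA' hB' q, Tinv, Tmod,
      Tmod (bexp q q')]
    congr 1
    funext k
    fin_cases k <;> simp [bexp] <;> ring_nf <;> omega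
  -- fusion
  have fus : ∀ {x y : G} (q q' : ℕ × ℕ × ℕ × ℕ), σ (word4 U W A B q) = x → σ (word4 U W A B q') = y →
      Commute x y → ∀ {h : G} {X Y : ℕ × ℕ × ℕ × ℕ} {i j : ℕ}, h * x * h⁻¹ = word4 u v a b X * e ^ i →
        h * y * h⁻¹ = word4 u v a b Y * e ^ j → T (bexp q q') = T fun k => bexp X Y k % 3 := by
    intro x y q q' hx hy hxy h X Y i j h1 h2
    obtain ⟨H, rfl⟩ := hσ.1 h
    have hw : ∀ q, σ (word4 U W A B q) = word4 u v a b q := fun q => by simp [word4, hU, hW, hA, hB]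
    have e1 : σ (word4 U W A B X * E ^ i) = σ (H * word4 U W A B q * H⁻¹) := by
      rw [map_mul, hw, map_pow, hE, ← h1, map_mul, map_mul, map_inv, hx]
    have e2 : σ (word4 U W A B Y * E ^ j) = σ (H * word4 U W A B q' * H⁻¹) := by
      rw [map_mul, hw, map_pow, hE, ← h2, map_mul, map_mul, map_inv, hy]
    have hcm : Commute (σ (word4 U W A B q)) (σ (word4 U W A B q')) := by rw [hx, hy]; exact hxy
    have hT : ⁅word4 U W A B X * E ^ i, word4 U W A B Y * E ^ j⁆ = T (bexp X Y) := by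
      have hz : ∀ q (n : ℕ), ⁅word4 U W A B q, E ^ n⁆ = T 0 := fun q n => by
        rw [Tzero, commutatorElement_eq_one_iff_mul_comm]; exact (cWd q).pow_right n
      have hz' : ⁅E ^ i, word4 U W A B Y * E ^ j⁆ = T 0 := by
        rw [Tzero, commutatorElement_eq_one_iff_mul_comm]
        exact ((cWd Y).symm.pow_left i).mul_right ((Commute.refl E).pow_pow i j)
      have h1 := mulR (cWd Y) (value X Y) (hz X j)
      rw [add_zero] at h1
      calc ⁅word4 U W A B X * E ^ i, word4 U W A B Y * E ^ j⁆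
          = word4 U W A B X * ⁅E ^ i, word4 U W A B Y * E ^ j⁆ * (word4 U W A B X)⁻¹ *
              ⁅word4 U W A B X, word4 U W A B Y * E ^ j⁆ := by simp only [commutatorElement_def]; group
        _ = _ := by rw [hz', Tzero, h1]; group
    rw [← value, ← comm_conj hc hcm H, ← comm_eq_of_map_eq hc e1 e2, hT, Tmod]
  obtain ⟨hA1, XA, YA, iA, jA, fA1, fA2, fA3⟩ := d.fusA
  obtain ⟨hB1, XB, YB, iB, jB, fB1, fB2, fB3⟩ := d.fusB
  obtain ⟨hC1, XC, YC, iC, jC, fC1, fC2, fC3⟩ := d.fusC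
  have r1 := fus (1, 0, 0, 0) (0, 0, 0, 1) (by simp [word4, hU]) (by simp [word4, hB]) d.ub fA1 fA2
  have r2 := fus (0, 1, 0, 0) (0, 0, 1, 0) (by simp [word4, hW]) (by simp [word4, hA]) d.va fB1 fB2
  have huvab : Commute (u * v) (a * b ^ 2) := by
    have h1 : u * v * a * (u * v)⁻¹ = e * a := by
      calc u * v * a * (u * v)⁻¹ = u * (v * a * v⁻¹) * u⁻¹ := by group
        _ = e * a := by rw [d.va.eq, mul_inv_cancel_right, d.ua]
    have h2 : u * v * b * (u * v)⁻¹ = e * b := by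
      calc u * v * b * (u * v)⁻¹ = u * (v * b * v⁻¹) * u⁻¹ := by group
        _ = u * (e * b) * u⁻¹ := by rw [d.vb]
        _ = e * b := by rw [(d.ue.mul_right d.ub).eq, mul_inv_cancel_right]
    refine mul_inv_eq_iff_eq_mul.1 ?_
    calc u * v * (a * b ^ 2) * (u * v)⁻¹ = u * v * a * (u * v)⁻¹ * (u * v * b * (u * v)⁻¹) ^ 2 := by
          rw [conj_pow]; group
      _ = a * b ^ 2 * e ^ 3 := by
          rw [h1, h2, d.be.1.symm.mul_pow, d.ae.1.symm.eq]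
          simp only [mul_assoc]
          rw [← mul_assoc e (e ^ 2), ← pow_succ', ((d.be.1.pow_pow 2 3).symm).eq]
      _ = _ := by rw [d.e3, mul_one]
  have r3 := fus (1, 1, 0, 0) (0, 0, 1, 2) (by simp [word4, hU, hW]) (by simp [word4, hA, hB]) huvab fC1 fC2
  rw [fA3, Tmod] at r1
  rw [fB3, Tmod] at r2
  rw [fC3, Tmod] at r3
  simp [bexp, T, tval] at r1 r2 r3
  have cancel : ∀ {p : Γ}, p ^ 3 = 1 → ∀ {q : Γ}, 1 = p ^ 2 * q → q = p := fun {p} hp {q} h => by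
    calc q = p ^ 3 * q := by rw [hp, one_mul]
      _ = p * (p ^ 2 * q) := by group
      _ = p := by rw [← h, mul_one]
  have e32 : k3 = k2 := cancel k23 (mul_left_cancel (a := k1) (by rw [mul_one, ← mul_assoc]; exact r1))
  have e31 : k3 = k1 := cancel k13 (mul_right_cancel (b := k2) (by
    rw [one_mul, mul_assoc, (cen mk3 k2).eq, ← mul_assoc]; exact r2))
  have hk21 : k2 = k1 := e32.symm.trans e31
  have hc1 : c = k1 ^ 2 := by
    rw [hk21, e31] at r3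
    calc c = (k1 * k1 ^ 2) * c := by rw [← pow_succ', k13, one_mul]
      _ = k1 ^ 2 * k1 * k1 ^ 2 := r3.symm
      _ = k1 ^ 2 * (k1 * k1 ^ 2) := by group
      _ = _ := by rw [← pow_succ', k13, mul_one]
  -- the commutator subgroup of the preimage
  set N := Subgroup.closure ({A, B, E, k1} : Set Γ) with hN
  have mA : A ∈ N := Subgroup.subset_closure (by simp)
  have mB : B ∈ N := Subgroup.subset_closure (by simp)
  have mE : E ∈ N := Subgroup.subset_closure (by simp)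
  have mK : k1 ∈ N := Subgroup.subset_closure (by simp)
  have fpart : ∀ {P Q E' : Γ} {p q : G}, σ P = p → σ Q = q → Commute P E → Commute E' Q → Commute F Q →
      E' ∈ Subgroup.zpowers E ⊔ Subgroup.zpowers k1 → Z * P * Z⁻¹ = P⁻¹ → P * Q * P⁻¹ = E' * Q →
      Commute P E' → (∃ r : ℕ, p * f * p⁻¹ = f * (q * e ^ r)) →
      Q ∈ N → Q ^ 3 = 1 → Commute Q E → Z * Q * Z⁻¹ = Q⁻¹ → ⁅P, F⁆ ∈ N := by
    intro P Q E' p q hP hQ cPE cE'Q cFQ hE' hZP hPQ cPE' ⟨r, hr⟩ hQN hQ3 cQE hZQ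
    have hk : (F * (Q * E ^ r))⁻¹ * (P * F * P⁻¹) ∈ σ.ker := by
      rw [MonoidHom.mem_ker, map_mul, map_inv, map_mul, map_mul, map_pow, map_mul, map_mul, map_inv, hF, hQ,
        hE, hP, hr, inv_mul_cancel]
    set k := (F * (Q * E ^ r))⁻¹ * (P * F * P⁻¹) with hkdef
    have h1 : P * F * P⁻¹ = F * (Q * E ^ r) * k := by rw [hkdef, mul_inv_cancel_left]
    have hk3 : k ^ 3 = 1 := by
      have hF3 : F ^ 3 ∈ σ.ker := by rw [MonoidHom.mem_ker, map_pow, hF, d.f3]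
      have h := congrArg (· ^ 3) h1
      simp only [conj_pow] at h
      rw [(cen hk (F * (Q * E ^ r))).symm.mul_pow, (cFQ.mul_right (cFE.pow_right r)).mul_pow,
        (cQE.pow_right r).mul_pow, hQ3, ← pow_mul, mul_comm r 3, pow_mul, hE3, one_pow, mul_one, mul_one,
        (cen hF3 P).symm.eq, mul_inv_cancel_right] at h
      exact mul_eq_left.1 h.symm
    obtain ⟨k0, hk0, hZF⟩ : ∃ k0 ∈ σ.ker, Z * F * Z⁻¹ = F * k0 :=
      ⟨F⁻¹ * (Z * F * Z⁻¹), by
        rw [MonoidHom.mem_ker, map_mul, map_inv, map_mul, map_mul, map_inv, hF, hZ, d.zf.eq,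
          mul_inv_cancel_right, inv_mul_cancel], by rw [mul_inv_cancel_left]⟩
    have h2 : P⁻¹ * F * P = F * (Q⁻¹ * E ^ r) * k := by
      have h : Z * (P * F * P⁻¹) * Z⁻¹ = Z * (F * (Q * E ^ r) * k) * Z⁻¹ := by rw [h1]
      have lhs : Z * (P * F * P⁻¹) * Z⁻¹ = P⁻¹ * F * P * k0 := by
        calc Z * (P * F * P⁻¹) * Z⁻¹ = (Z * P * Z⁻¹) * (Z * F * Z⁻¹) * (Z * P * Z⁻¹)⁻¹ := by group
          _ = P⁻¹ * F * (k0 * P) := by rw [hZP, hZF]; group
          _ = _ := by rw [(cen hk0 P).eq]; group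
      have rhs : Z * (F * (Q * E ^ r) * k) * Z⁻¹ = F * (Q⁻¹ * E ^ r) * k * k0 := by
        calc Z * (F * (Q * E ^ r) * k) * Z⁻¹
            = (Z * F * Z⁻¹) * ((Z * Q * Z⁻¹) * (Z * E * Z⁻¹) ^ r) * (Z * k * Z⁻¹) := by rw [conj_pow]; group
          _ = F * k0 * (Q⁻¹ * E ^ r * k) := by
              rw [hZF, hZQ, hZE, ← (cen hk Z).eq, mul_inv_cancel_right]; group
          _ = _ := by rw [mul_assoc F k0, (cen hk0 (Q⁻¹ * E ^ r * k)).eq]; group
      rw [lhs, rhs] at h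
      exact mul_right_cancel h
    have h3 : P⁻¹ * Q * P = E'⁻¹ * Q := by
      calc P⁻¹ * Q * P = P⁻¹ * (E'⁻¹ * (E' * Q)) * P := by group
        _ = P⁻¹ * (E'⁻¹ * (P * Q * P⁻¹)) * P := by rw [hPQ]
        _ = E'⁻¹ * P⁻¹ * (P * Q * P⁻¹) * P := by rw [← mul_assoc P⁻¹, (cPE'.inv_inv).eq]
        _ = _ := by group
    have h4 : Q⁻¹ * E ^ r * k * (E'⁻¹ * Q * E ^ r * k) = 1 := by
      refine mul_left_cancel (a := F) ?_
      rw [mul_one]
      symm
      calc F = P⁻¹ * (P * F * P⁻¹) * P := by group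
        _ = P⁻¹ * (F * (Q * E ^ r) * k) * P := by rw [h1]
        _ = (P⁻¹ * F * P) * ((P⁻¹ * Q * P) * (P⁻¹ * E ^ r * P) * (P⁻¹ * k * P)) := by group
        _ = _ := by
            rw [h2, h3, (cPE.pow_right r).inv_left.eq, inv_mul_cancel_right, ← (cen hk P⁻¹).eq,
              inv_mul_cancel_right]
            group
    have hE'le : Subgroup.zpowers E ⊔ Subgroup.zpowers k1 ≤ N :=
      sup_le (Subgroup.zpowers_le.2 mE) (Subgroup.zpowers_le.2 mK)
    have hkk : k * k ∈ N := by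
      have h5 : k * k = (Q⁻¹ * E ^ r * E'⁻¹ * Q * E ^ r)⁻¹ := by
        refine eq_inv_of_mul_eq_one_right ?_
        rw [← mul_assoc]
        calc Q⁻¹ * E ^ r * E'⁻¹ * Q * E ^ r * k * k = Q⁻¹ * E ^ r * (k * (E'⁻¹ * Q * E ^ r)) * k := by
              rw [(cen hk _).eq]; group
          _ = 1 := by rw [← h4]; group
      rw [h5]
      exact inv_mem (mul_mem (mul_mem (mul_mem (mul_mem (inv_mem hQN) (pow_mem mE r))
        (inv_mem (hE'le hE'))) hQN) (pow_mem mE r))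
    have hkN : k ∈ N := by
      have : k = (k * k) * (k * k) := by
        calc k = k ^ 3 * k := by rw [hk3, one_mul]
          _ = _ := by simp only [pow_succ, pow_zero, one_mul, mul_assoc]
      rw [this]; exact mul_mem hkk hkk
    have : ⁅P, F⁆ = Q * E ^ r * k := by
      rw [commutatorElement_def, h1, mul_assoc F, ((cFQ.mul_right (cFE.pow_right r)).mul_right
        (cen hk F).symm).eq, mul_inv_cancel_right]
    rw [this]
    exact mul_mem (mul_mem hQN (pow_mem mE r)) hkN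
  have hUF : ⁅U, F⁆ ∈ N := fpart hU hA cUE cAE.symm cFA
    (Subgroup.mem_sup_left (Subgroup.mem_zpowers E)) hZU hUA cUE d.uf mA hA3 cAE hZA
  have hWF : ⁅W, F⁆ ∈ N := by
    refine fpart (E' := E * k3) hW hB cWE (cBE.symm.mul_left (cen mk3 B)) cFB ?_ hZW ?_ (cWE.mul_right (cen mk3 W).symm)
      d.vf mB hB3 cBE hZB
    · rw [e31]
      exact mul_mem (Subgroup.mem_sup_left (Subgroup.mem_zpowers E)) (Subgroup.mem_sup_right (Subgroup.mem_zpowers k1))
    · rw [← hWB, commutatorElement_def]; group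
  have hUW : ⁅U, W⁆ ∈ N := by rw [← hcdef, hc1]; exact pow_mem mK 2
  refine ⟨k1, k13, fun p hp hpk => ?_⟩
  have himg : ({f, u, v} : Set G) = σ '' {F, U, W} := by
    rw [Set.image_insert_eq, Set.image_pair, hF, hU, hW]
  rw [himg] at hp
  have hpN : p ∈ N := by
    refine commutator_comap_closure_le hc {F, U, W} N ?_ ?_ hp
    · have key : ∀ s : Γ, (∀ n ∈ ({A, B, E, k1} : Set Γ), s * n * s⁻¹ ∈ N) →
          s ∈ Subgroup.normalizer (N : Set Γ) := by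
        intro s hs
        have hmap : N.map (MulAut.conj s).toMonoidHom ≤ N := by
          rw [hN, MonoidHom.map_closure, Subgroup.closure_le, ← hN]
          rintro _ ⟨n, hn, rfl⟩
          exact hs n hn
        have heq : N.map (MulAut.conj s).toMonoidHom = N :=
          Subgroup.eq_of_le_of_card_ge hmap
            (Subgroup.card_map_of_injective (MulAut.conj s).injective).ge
        rw [Subgroup.mem_normalizer_iff]
        intro h
        refine ⟨fun hh => hmap ⟨h, hh, rfl⟩, fun hh => ?_⟩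
        have hh' : MulAut.conj s h ∈ N := hh
        rw [← heq] at hh'
        obtain ⟨n, hn, e⟩ := hh'
        exact (MulAut.conj s).injective e ▸ hn
      have fix : ∀ {s n : Γ}, Commute s n → n ∈ N → s * n * s⁻¹ ∈ N := fun h hn => by
        rw [h.eq, mul_inv_cancel_right]; exact hn
      intro s hs
      rcases (show s = F ∨ s = U ∨ s = W by simpa using hs) with e | e | e <;> rw [e] <;>
        refine key _ ?_ <;> intro n hn <;>
        rcases (show n = A ∨ n = B ∨ n = E ∨ n = k1 by simpa using hn) with e' | e' | e' | e' <;> rw [e']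
      exacts [fix cFA mA, fix cFB mB, fix cFE mE, fix (cen mk1 F).symm mK,
        hUA ▸ mul_mem mE mA,
        (show U * B * U⁻¹ = k1 * B by rw [hk1def, commutatorElement_def]; group) ▸ mul_mem mK mB,
        fix cUE mE, fix (cen mk1 U).symm mK,
        (show W * A * W⁻¹ = k2 * A by rw [hk2def, commutatorElement_def]; group) ▸ mul_mem (hk21 ▸ mK) mA,
        (show W * B * W⁻¹ = E * k3 * B by rw [← hWB, commutatorElement_def]; group) ▸
          mul_mem (mul_mem mE (e31 ▸ mK)) mB,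
        fix cWE mE, fix (cen mk1 W).symm mK]
    · intro s hs t ht
      rcases (show s = F ∨ s = U ∨ s = W by simpa using hs) with e | e | e <;>
        rcases (show t = F ∨ t = U ∨ t = W by simpa using ht) with e' | e' | e' <;> rw [e, e']
      all_goals first
        | (rw [commutatorElement_self]; exact one_mem N)
        | exact hUF
        | exact hWF
        | exact hUW
        | (rw [← commutatorElement_inv]; exact inv_mem hUF)
        | (rw [← commutatorElement_inv]; exact inv_mem hWF)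
        | (rw [← commutatorElement_inv]; exact inv_mem hUW)
  have hform : ∀ q ∈ N, ∃ i j l m : ℕ, q = A ^ i * B ^ j * E ^ l * k1 ^ m := by
    intro q hq
    have hmulform : ∀ i j l m i' j' l' m' : ℕ,
        A ^ i * B ^ j * E ^ l * k1 ^ m * (A ^ i' * B ^ j' * E ^ l' * k1 ^ m') =
          A ^ (i + i') * B ^ (j + j') * E ^ (l + l') * k1 ^ (m + m') := by
      intro i j l m i' j' l' m'
      simp only [pow_add, mul_assoc]
      rw [((cen mk1 A).pow_pow m i').left_comm, ((cen mk1 B).pow_pow m j').left_comm,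
        ((cen mk1 E).pow_pow m l').left_comm, (cAE.symm.pow_pow l i').left_comm,
        (cBE.symm.pow_pow l j').left_comm, (cAB.symm.pow_pow j i').left_comm]
    induction hq using Subgroup.closure_induction with
    | mem x hx =>
      rcases hx with rfl | rfl | rfl | rfl
      exacts [⟨1, 0, 0, 0, by simp⟩, ⟨0, 1, 0, 0, by simp⟩, ⟨0, 0, 1, 0, by simp⟩, ⟨0, 0, 0, 1, by simp⟩]
    | one => exact ⟨0, 0, 0, 0, by simp⟩
    | mul x y _ _ hx hy =>
      obtain ⟨i, j, l, m, rfl⟩ := hx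
      obtain ⟨i', j', l', m', rfl⟩ := hy
      exact ⟨_, _, _, _, hmulform i j l m i' j' l' m'⟩
    | inv x _ hx =>
      obtain ⟨i, j, l, m, rfl⟩ := hx
      refine ⟨i * 2, j * 2, l * 2, m * 2, inv_eq_of_mul_eq_one_right ?_⟩
      rw [hmulform, show i + i * 2 = 3 * i by ring, show j + j * 2 = 3 * j by ring,
        show l + l * 2 = 3 * l by ring, show m + m * 2 = 3 * m by ring, pow_mul, pow_mul, pow_mul, pow_mul,
        hA3, hB3, hE3, k13]
      simp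
  obtain ⟨i, j, l, m, rfl⟩ := hform p hpN
  have hz : a ^ i * b ^ j * e ^ l = 1 := by
    have h := MonoidHom.mem_ker.1 hpk
    rwa [map_mul, map_mul, map_mul, map_pow, map_pow, map_pow, map_pow, hA, hB, hE,
      MonoidHom.mem_ker.1 mk1, one_pow, mul_one] at h
  rw [pow_eq_pow_mod i d.a3, pow_eq_pow_mod j d.b3, pow_eq_pow_mod l d.e3] at hz
  obtain ⟨hi, hj, hl⟩ := d.indep ⟨i % 3, Nat.mod_lt _ (by norm_num)⟩ ⟨j % 3, Nat.mod_lt _ (by norm_num)⟩
    ⟨l % 3, Nat.mod_lt _ (by norm_num)⟩ hz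
  rw [pow_eq_pow_mod i hA3, pow_eq_pow_mod j hB3, pow_eq_pow_mod l hE3, show i % 3 = 0 from congrArg Fin.val hi,
    show j % 3 = 0 from congrArg Fin.val hj, show l % 3 = 0 from congrArg Fin.val hl]
  simpa using Subgroup.pow_mem _ (Subgroup.mem_zpowers k1) m

end CfsgLib.McLMult
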