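import Cfsg.Agent.Lib.McLMult.Witness
import Cfsg.Agent.Lib.McLMult.ThreeBound
import Cfsg.Agent.Lib.SchurMult.OddSylow
import Cfsg.Agent.Lib.SchurMult.SmallSylow
import Cfsg.Agent.Lib.McLInv.Main

/-! The multiplier of McL is cyclic of order `3`. -/

set_option autoImplicit false
set_option maxRecDepth 100000

namespace CfsgLib.McLMult

open MulAction CfsgLib.SchurMult CfsgLib.SchurMult.PermCert CfsgLib.Leech CfsgLib.GolayStructure
open scoped commutatorElement

theorem card_mcl : Nat.card mclG = 2 ^ 7 * (3 ^ 6 * 5 ^ 3 * 7 * 11) := by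
  rw [simple_mclG.2]; norm_num

theorem colMcL_table : colMcL.tableOK = true := by decide +kernel

theorem colMcL_solved : colMcL.solvedOK = true := by decide +kernel

theorem two_ok : mclTables.twoOK colMcL ptsMcL orderMcL = true := by decide +kernel

/-- The inverse of an element of order `3` as a word. -/
def inv3 (i : ℕ) : List ℕ := [i, i]

/-- Pairs of words with equal values, for the prime 3. -/
def rels3 : List (List ℕ × List ℕ) :=
  [([11, 11], []), ([11, 16], inv3 16 ++ [11]), ([11, 17], inv3 17 ++ [11]), ([11, 13], inv3 13 ++ [11]),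
    ([11, 14], inv3 14 ++ [11]), ([11, 12], [12, 11]), ([11, 15], [15, 11]),
    (Tables.rep 16 3, []), (Tables.rep 17 3, []), (Tables.rep 13 3, []), (Tables.rep 14 3, []),
    (Tables.rep 12 3, []), (Tables.rep 15 3, []),
    ([16, 17], [17, 16]), ([16, 14], [14, 16]), ([17, 13], [13, 17]), ([16, 15], [15, 16]), ([17, 15], [15, 17]),
    ([16, 13], [15, 13, 16]), ([17, 14], [15, 14, 17]),
    ([16, 12], [12, 13, 15, 15, 16]), ([17, 12], [12, 14, 15, 15, 17]),
    ([12, 13], [13, 12]), ([12, 14], [14, 12]), ([12, 15], [15, 12]), ([13, 14], [14, 13]), ([13, 15], [15, 13]),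
    ([14, 15], [15, 14]),
    ([21, 12], [12, 21]), ([21, 13], [13, 13, 21]), ([22, 12], [12, 12, 22]), ([22, 14], [14, 22]),
    ([23, 12], [12, 12, 23]), ([23, 15], [12, 15, 23]), ([24, 13], [14, 24]), ([24, 14], [13, 24]),
    ([25, 13], [13, 13, 25]), ([25, 15], [15, 25]), ([26, 14], [14, 14, 26]), ([26, 15], [15, 26]),
    ([18, 16], [16, 17, 13, 13, 14, 14, 18]), ([18, 14], [16, 17, 13, 15, 18]),
    ([19, 17], [16, 16, 17, 15, 15, 19]), ([19, 13], [16, 16, 17, 13, 14, 15, 19]),
    ([20, 16, 17], [17, 17, 13, 13, 14, 14, 15, 15, 20]), ([20, 13, 14, 14], [16, 14, 15, 20])]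

theorem rels3_ok : rels3.all (fun r => mclTables.sameWord r.1 r.2) = true := by decide +kernel

theorem indep3_ok : ∀ i j k : Fin 3,
    ((List.range 275).all fun q =>
        Nat.beq (mclTables.imgW (Tables.rep 13 i ++ Tables.rep 14 j ++ Tables.rep 15 k) q) q) = true →
      i = 0 ∧ j = 0 ∧ k = 0 := by decide +kernel

theorem words3_ok : (mclTables.keysIncr pts3 words3 && decide (words3.length = 3 ^ 6) &&
    words3.all (fun w => w.all fun i => decide (12 ≤ i ∧ i < 18)) &&
    pts3.all (fun q => decide (q < 275))) = true := by decide +kernel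

/-- Pairs of words with equal values, for the prime 5. -/
def rels5 : List (List ℕ × List ℕ) :=
  [([27, 28], [29, 28, 27]), (Tables.rep 27 5, []), (Tables.rep 28 5, []), (Tables.rep 29 5, []),
    ([27, 29], [29, 27]), ([28, 29], [29, 28]),
    ([30, 27], Tables.rep 27 4 ++ Tables.rep 29 3 ++ [30]), ([30, 29], Tables.rep 27 0 ++ Tables.rep 29 1 ++ [30]),
    ([31, 28], Tables.rep 28 4 ++ Tables.rep 29 4 ++ [31]), ([31, 29], Tables.rep 28 0 ++ Tables.rep 29 1 ++ [31])]

theorem rels5_ok : rels5.all (fun r => mclTables.sameWord r.1 r.2) = true := by decide +kernel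

theorem z5_ne : (List.range 275).all (fun u => mclTables.img 29 u == u) = false := by decide +kernel

theorem words5_ok : mclTables.keysIncr pts5 words5 = true ∧ words5.length = 5 ^ 3 ∧
    (∀ w ∈ words5, ∀ i ∈ w, i = 27 ∨ i = 28) ∧ ∀ q ∈ pts5, q < 275 := by decide +kernel

theorem three_data : ThreeData (el 11) (el 12) (el 13) (el 14) (el 15) (el 16) (el 17) := by
  have hok := rels3_ok
  simp only [rels3, List.all_cons, List.all_nil, Bool.and_eq_true, and_true] at hok
  obtain ⟨z2, zu, zv, za, zb, zf, ze, u3, v3, a3, b3, f3, e3, uv, ub, va, ue, ve, ua, vb, uf, vf,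
    fa, fb, fe, ab, ae, be, p01, p01', p02, p02', p03, p03', p12, p12', p13, p13', p23, p23',
    fA, fA', fB, fB', fC, fC'⟩ := hok
  replace z2 := realises.eq_of_sameWord z2
  replace zu := realises.eq_of_sameWord zu
  replace zv := realises.eq_of_sameWord zv
  replace za := realises.eq_of_sameWord za
  replace zb := realises.eq_of_sameWord zb
  replace zf := realises.eq_of_sameWord zf
  replace ze := realises.eq_of_sameWord ze
  replace u3 := realises.eq_of_sameWord u3
  replace v3 := realises.eq_of_sameWord v3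
  replace a3 := realises.eq_of_sameWord a3
  replace b3 := realises.eq_of_sameWord b3
  replace f3 := realises.eq_of_sameWord f3
  replace e3 := realises.eq_of_sameWord e3
  replace uv := realises.eq_of_sameWord uv
  replace ub := realises.eq_of_sameWord ub
  replace va := realises.eq_of_sameWord va
  replace ue := realises.eq_of_sameWord ue
  replace ve := realises.eq_of_sameWord ve
  replace ua := realises.eq_of_sameWord ua
  replace vb := realises.eq_of_sameWord vb
  replace uf := realises.eq_of_sameWord uf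
  replace vf := realises.eq_of_sameWord vf
  replace fa := realises.eq_of_sameWord fa
  replace fb := realises.eq_of_sameWord fb
  replace fe := realises.eq_of_sameWord fe
  replace ab := realises.eq_of_sameWord ab
  replace ae := realises.eq_of_sameWord ae
  replace be := realises.eq_of_sameWord be
  replace p01 := realises.eq_of_sameWord p01
  replace p01' := realises.eq_of_sameWord p01'
  replace p02 := realises.eq_of_sameWord p02
  replace p02' := realises.eq_of_sameWord p02'
  replace p03 := realises.eq_of_sameWord p03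
  replace p03' := realises.eq_of_sameWord p03'
  replace p12 := realises.eq_of_sameWord p12
  replace p12' := realises.eq_of_sameWord p12'
  replace p13 := realises.eq_of_sameWord p13
  replace p13' := realises.eq_of_sameWord p13'
  replace p23 := realises.eq_of_sameWord p23
  replace p23' := realises.eq_of_sameWord p23'
  replace fA := realises.eq_of_sameWord fA
  replace fA' := realises.eq_of_sameWord fA'
  replace fB := realises.eq_of_sameWord fB
  replace fB' := realises.eq_of_sameWord fB'
  replace fC := realises.eq_of_sameWord fC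
  replace fC' := realises.eq_of_sameWord fC'
  simp only [inv3, Tables.lprod_rep, List.cons_append, List.nil_append, lprod, mul_one] at *
  -- conjugation form
  have conj : ∀ {g x y : mclG}, g * x = y * g → g * x * g⁻¹ = y := fun h => mul_inv_eq_iff_eq_mul.2 h
  have inv : ∀ {g x : mclG}, x ^ 3 = 1 → g * x = x * (x * g) → g * x * g⁻¹ = x⁻¹ := fun {g x} h3 h => by
    rw [conj (y := x * x) (by rw [mul_assoc]; exact h)]
    refine eq_inv_of_mul_eq_one_right ?_
    rw [← mul_assoc, ← pow_two, ← pow_succ, h3]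
  refine
    { z2 := z2, zu := inv u3 zu, zv := inv v3 zv, za := inv a3 za, zb := inv b3 zb, zf := zf, ze := ze
      u3 := u3, v3 := v3, a3 := a3, b3 := b3, f3 := f3, e3 := e3, uv := uv, ub := ub, va := va, ue := ue, ve := ve
      ua := conj (by rw [ua]; group), vb := conj (by rw [vb]; group)
      uf := ⟨2, conj (by rw [uf, pow_two]; group)⟩, vf := ⟨2, conj (by rw [vf, pow_two]; group)⟩
      fa := ⟨fa, el 21, 1, 0, 0, 2, conj (by rw [p01]; group), conj (by rw [p01', pow_two]; group), by norm_num⟩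
      fb := ⟨fb, el 22, 2, 0, 0, 1, conj (by rw [p02, pow_two]; group), conj (by rw [p02']; group), by norm_num⟩
      fe := ⟨fe, el 23, 2, 0, 1, 1, conj (by rw [p03, pow_two]; group), conj (by rw [p03']; group), by norm_num⟩
      ab := ⟨ab, el 24, 0, 1, 1, 0, conj (by rw [p12]; group), conj (by rw [p12']; group), by norm_num⟩
      ae := ⟨ae, el 25, 2, 0, 0, 1, conj (by rw [p13, pow_two]; group), conj (by rw [p13']; group), by norm_num⟩
      be := ⟨be, el 26, 2, 0, 0, 1, conj (by rw [p23, pow_two]; group), conj (by rw [p23']; group), by norm_num⟩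
      fusA := ⟨el 18, (1, 1, 2, 2), (1, 1, 1, 0), 0, 1,
        conj (by rw [fA]; simp only [word4, pow_two, pow_zero, pow_one]; group),
        conj (by rw [fA']; simp only [word4, pow_two, pow_zero, pow_one]; group), by decide⟩
      fusB := ⟨el 19, (2, 1, 0, 0), (2, 1, 1, 1), 2, 1,
        conj (by rw [fB]; simp only [word4, pow_two, pow_zero, pow_one]; group),
        conj (by rw [fB']; simp only [word4, pow_two, pow_zero, pow_one]; group), by decide⟩
      fusC := ⟨el 20, (0, 2, 2, 2), (1, 0, 0, 1), 2, 1,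
        conj (by rw [fC]; simp only [word4, pow_two, pow_zero, pow_one]; group),
        conj (by rw [pow_two, fC']; simp only [word4, pow_two, pow_zero, pow_one]; group), by decide⟩
      indep := fun i j k h => indep3_ok i j k ?_ }
  simp only [List.all_eq_true, List.mem_range]
  have hlen : 15 < mclTables.ts.length := by decide +kernel
  have hw : ∀ l ∈ Tables.rep 13 (i : ℕ) ++ Tables.rep 14 (j : ℕ) ++ Tables.rep 15 (k : ℕ), l < mclTables.ts.length := by
    intro l hl
    simp only [List.mem_append, Tables.rep, List.mem_replicate] at hl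
    omega
  intro u hu
  have h1 : lprod el (Tables.rep 13 (i : ℕ) ++ Tables.rep 14 (j : ℕ) ++ Tables.rep 15 (k : ℕ)) = 1 := by
    rw [lprod_append, lprod_append, Tables.lprod_rep, Tables.lprod_rep, Tables.lprod_rep]
    exact h
  rw [← realises.imgW _ hw ⟨u, hu⟩, h1, map_one]
  exact Nat.beq_refl u

variable {Γ : Type} [Group Γ] [Finite Γ] {σ : Γ →* mclG}

theorem isPGroup_ext {G : Type*} [Group G] {A : Subgroup G} (hA : IsPGroup 3 A) {g : G} (hg : g ^ 3 = 1)
    (hn : g ∈ Subgroup.normalizer (A : Set G)) : IsPGroup 3 ↥(A ⊔ Subgroup.zpowers g) := by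
  rw [sup_comm]
  obtain ⟨k, -, hk⟩ := (Nat.dvd_prime_pow Nat.prime_three).1
    (orderOf_dvd_of_pow_eq_one (show g ^ 3 ^ 1 = 1 by rw [pow_one]; exact hg))
  refine IsPGroup.to_sup_of_normal_right' (IsPGroup.of_card (n := k) ?_) hA (Subgroup.zpowers_le.2 hn)
  rw [Nat.card_zpowers, hk]

theorem index_three [Finite mclG] : ¬ 3 ∣ (Subgroup.closure ({el 12, el 16, el 17} : Set mclG)).index := by
  intro hdvd
  set d := three_data
  set H := Subgroup.closure ({el 12, el 16, el 17} : Set mclG)
  set V := Subgroup.closure ({el 12, el 13, el 14, el 15} : Set mclG)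
  have mf : el 12 ∈ V := Subgroup.subset_closure (by simp)
  have ma : el 13 ∈ V := Subgroup.subset_closure (by simp)
  have mb : el 14 ∈ V := Subgroup.subset_closure (by simp)
  have me : el 15 ∈ V := Subgroup.subset_closure (by simp)
  have hV : IsPGroup 3 V := by
    haveI : IsMulCommutative V := Subgroup.isMulCommutative_closure fun x hx y hy => by
      rcases hx with rfl | rfl | rfl | rfl <;> rcases hy with rfl | rfl | rfl | rfl
      exacts [rfl, d.fa.1, d.fb.1, d.fe.1, d.fa.1.symm, rfl, d.ab.1, d.ae.1, d.fb.1.symm, d.ab.1.symm, rfl,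
        d.be.1, d.fe.1.symm, d.ae.1.symm, d.be.1.symm, rfl]
    refine fun x => ⟨1, Subtype.ext ?_⟩
    show (x : mclG) ^ 3 ^ 1 = 1
    rw [pow_one]
    obtain ⟨x, hx⟩ := x
    show x ^ 3 = 1
    induction hx using Subgroup.closure_induction with
    | mem x hx => rcases hx with rfl | rfl | rfl | rfl; exacts [d.f3, d.a3, d.b3, d.e3]
    | one => exact one_pow 3
    | mul p q hp hq ihp ihq =>
      have hpq : Commute p q := congrArg Subtype.val (mul_comm' (⟨p, hp⟩ : V) ⟨q, hq⟩)
      rw [hpq.mul_pow, ihp, ihq, one_mul]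
    | inv p hp ihp => rw [inv_pow, ihp, inv_one]
  have hfix : ∀ {g x : mclG}, Commute g x → x ∈ V → g * x * g⁻¹ ∈ V := fun h hx => by
    rw [h.eq, mul_inv_cancel_right]; exact hx
  have key : ∀ {A : Subgroup mclG} {S : Set mclG}, A = Subgroup.closure S → ∀ g : mclG,
      (∀ n ∈ S, g * n * g⁻¹ ∈ A) → g ∈ Subgroup.normalizer (A : Set mclG) := by
    intro A S hA g hg
    have hmap : A.map (MulAut.conj g).toMonoidHom ≤ A := by
      conv_lhs => rw [hA]
      rw [MonoidHom.map_closure, Subgroup.closure_le]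
      rintro _ ⟨n, hn, rfl⟩
      exact hg n hn
    have heq : A.map (MulAut.conj g).toMonoidHom = A :=
      Subgroup.eq_of_le_of_card_ge hmap
        (Subgroup.card_map_of_injective (MulAut.conj g).injective).ge
    rw [Subgroup.mem_normalizer_iff]
    intro h
    refine ⟨fun hh => hmap ⟨h, hh, rfl⟩, fun hh => ?_⟩
    have hh' : MulAut.conj g h ∈ A := hh
    rw [← heq] at hh'
    obtain ⟨n, hn, e⟩ := hh'
    exact (MulAut.conj g).injective e ▸ hn
  obtain ⟨ru, hru⟩ := d.uf
  obtain ⟨rv, hrv⟩ := d.vf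
  have huf : el 16 * el 12 * (el 16)⁻¹ ∈ V := by rw [hru]; exact mul_mem mf (mul_mem ma (pow_mem me _))
  have hvf : el 17 * el 12 * (el 17)⁻¹ ∈ V := by rw [hrv]; exact mul_mem mf (mul_mem mb (pow_mem me _))
  have hua : el 16 * el 13 * (el 16)⁻¹ ∈ V := by rw [d.ua]; exact mul_mem me ma
  have hvb : el 17 * el 14 * (el 17)⁻¹ ∈ V := by rw [d.vb]; exact mul_mem me mb
  have hu : el 16 ∈ Subgroup.normalizer (V : Set mclG) := key rfl _ fun n hn => by
    rcases hn with rfl | rfl | rfl | rfl
    exacts [huf, hua, hfix d.ub mb, hfix d.ue me]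
  have hV1 : IsPGroup 3 ↥(V ⊔ Subgroup.zpowers (el 16)) := isPGroup_ext hV d.u3 hu
  have hv : el 17 ∈ Subgroup.normalizer ((V ⊔ Subgroup.zpowers (el 16) : Subgroup mclG) : Set mclG) := by
    refine key (S := {el 12, el 13, el 14, el 15} ∪ {el 16})
      (by rw [Subgroup.closure_union, Subgroup.zpowers_eq_closure]) _ fun n hn => ?_
    rcases hn with (rfl | rfl | rfl | rfl) | rfl
    exacts [Subgroup.mem_sup_left hvf, Subgroup.mem_sup_left (hfix d.va ma), Subgroup.mem_sup_left hvb,
      Subgroup.mem_sup_left (hfix d.ve me), Subgroup.mem_sup_right (by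
        rw [← d.uv.eq, mul_inv_cancel_right]; exact Subgroup.mem_zpowers _)]
  have hV2 := isPGroup_ext hV1 d.v3 hv
  obtain ⟨k, hk⟩ := IsPGroup.iff_card.1 hV2
  have hw := words3_ok
  simp only [Bool.and_eq_true, decide_eq_true_eq, List.all_eq_true] at hw
  obtain ⟨⟨⟨hkey, hlen⟩, hlt⟩, hpts⟩ := hw
  have hle := realises.length_le_card (fun q hq => hpts q hq) hkey
    (V ⊔ Subgroup.zpowers (el 16) ⊔ Subgroup.zpowers (el 17)) fun w hw => Tables.lprod_mem fun i hi => by
      have := hlt w hw i hi
      have e : ∀ {x : mclG}, x ∈ V → x ∈ V ⊔ Subgroup.zpowers (el 16) ⊔ Subgroup.zpowers (el 17) :=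
        fun hx => Subgroup.mem_sup_left (Subgroup.mem_sup_left hx)
      rcases (show i = 12 ∨ i = 13 ∨ i = 14 ∨ i = 15 ∨ i = 16 ∨ i = 17 by omega) with
        rfl | rfl | rfl | rfl | rfl | rfl
      exacts [e mf, e ma, e mb, e me, Subgroup.mem_sup_left (Subgroup.mem_sup_right (Subgroup.mem_zpowers _)),
        Subgroup.mem_sup_right (Subgroup.mem_zpowers _)]
  rw [hlen, hk] at hle
  -- everything is generated by the three elements
  have hH : V ⊔ Subgroup.zpowers (el 16) ⊔ Subgroup.zpowers (el 17) ≤ H := by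
    have hf : el 12 ∈ H := Subgroup.subset_closure (by simp)
    have hu' : el 16 ∈ H := Subgroup.subset_closure (by simp)
    have hv' : el 17 ∈ H := Subgroup.subset_closure (by simp)
    have hae : el 13 * el 15 ^ ru ∈ H := by
      rw [show el 13 * el 15 ^ ru = (el 12)⁻¹ * (el 16 * el 12 * (el 16)⁻¹) by rw [hru]; group]
      exact mul_mem (inv_mem hf) (mul_mem (mul_mem hu' hf) (inv_mem hu'))
    have he : el 15 ∈ H := by
      have h1 : el 15 = el 16 * (el 13 * el 15 ^ ru) * (el 16)⁻¹ * (el 13 * el 15 ^ ru)⁻¹ := by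
        rw [show el 16 * (el 13 * el 15 ^ ru) * (el 16)⁻¹ =
          el 16 * el 13 * (el 16)⁻¹ * (el 16 * el 15 ^ ru * (el 16)⁻¹) by group, d.ua,
          (d.ue.pow_right ru).eq, mul_inv_cancel_right]
        group
      rw [h1]
      exact mul_mem (mul_mem (mul_mem hu' hae) (inv_mem hu')) (inv_mem hae)
    have ha : el 13 ∈ H := (mul_mem_cancel_right (pow_mem he ru)).1 hae
    have hb : el 14 ∈ H := by
      refine (mul_mem_cancel_right (pow_mem he rv)).1 ?_
      rw [show el 14 * el 15 ^ rv = (el 12)⁻¹ * (el 17 * el 12 * (el 17)⁻¹) by rw [hrv]; group]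
      exact mul_mem (inv_mem hf) (mul_mem (mul_mem hv' hf) (inv_mem hv'))
    refine sup_le (sup_le ((Subgroup.closure_le H).2 ?_) (Subgroup.zpowers_le.2 hu')) (Subgroup.zpowers_le.2 hv')
    rintro x (rfl | rfl | rfl | rfl)
    exacts [hf, ha, hb, he]
  have h6 : 3 ^ 6 ∣ Nat.card (V ⊔ Subgroup.zpowers (el 16) ⊔ Subgroup.zpowers (el 17) : Subgroup mclG) := by
    rw [hk]; exact Nat.pow_dvd_pow 3 ((Nat.pow_le_pow_iff_right (by norm_num)).1 hle)
  have h2 := Nat.mul_dvd_mul (h6.trans (Subgroup.card_dvd_of_le hH)) hdvd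
  rw [Subgroup.card_mul_index, card_mcl] at h2
  norm_num at h2

theorem not_five [Finite mclG] (hσ : Cfsg.IsStemExtension σ) : ¬ 5 ∣ Nat.card σ.ker := by
  have hok := rels5_ok
  simp only [rels5, List.all_cons, List.all_nil, Bool.and_eq_true, and_true] at hok
  obtain ⟨e1, ex, ey, ez, exz, eyz, egx, egz, ehy, ehz⟩ := hok
  replace e1 := realises.eq_of_sameWord e1
  replace ex := realises.eq_of_sameWord ex
  replace ey := realises.eq_of_sameWord ey
  replace ez := realises.eq_of_sameWord ez
  replace exz := realises.eq_of_sameWord exz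
  replace eyz := realises.eq_of_sameWord eyz
  replace egx := realises.eq_of_sameWord egx
  replace egz := realises.eq_of_sameWord egz
  replace ehy := realises.eq_of_sameWord ehy
  replace ehz := realises.eq_of_sameWord ehz
  simp only [lprod_append, Tables.lprod_rep, lprod, mul_one] at e1 ex ey ez exz eyz egx egz ehy ehz
  obtain ⟨hk, hlen, hlt, hpts⟩ := words5_ok
  have hzc : el 27 * el 28 * (el 27)⁻¹ * (el 28)⁻¹ = el 29 := by rw [e1]; group
  refine OddSylow.not_dvd_of_extraspecial hσ (p := 5) (by norm_num) hzc ex ey ?_ exz eyz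
    (mul_inv_eq_iff_eq_mul.2 egx) (mul_inv_eq_iff_eq_mul.2 egz) (by norm_num)
    (mul_inv_eq_iff_eq_mul.2 ehy) (mul_inv_eq_iff_eq_mul.2 ehz) (by norm_num) ?_
  · intro h1
    have hz := z5_ne
    rw [← Bool.not_eq_true] at hz
    refine hz ?_
    simp only [List.all_eq_true, List.mem_range, beq_iff_eq]
    intro u hu
    rw [← realises.img 29 (by decide +kernel) ⟨u, hu⟩, h1, map_one]
    rfl
  · exact realises.not_dvd_index (p := 5) (by norm_num) hpts hk hlen hlt
      (m := 2 ^ 7 * 3 ^ 6 * 7 * 11) (by rw [card_mcl]; norm_num) (by norm_num)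
      (Tables.natCard_closure_le_cube (by norm_num) ex ey ez hzc exz eyz)

theorem eq_three_of_dvd [Finite mclG] (hσ : Cfsg.IsStemExtension σ) {p : ℕ} (hp : p.Prime)
    (hd : p ∣ Nat.card σ.ker) : p = 3 := by
  haveI : Fact p.Prime := ⟨hp⟩
  have hpd : p ∣ Nat.card mclG := by
    obtain ⟨x, hx⟩ := exists_prime_orderOf_dvd_card' p hd
    rw [← hx, ← Subgroup.orderOf_coe]
    exact orderOf_dvd_of_pow_eq_one (ker_pow_card hσ x.2)
  by_contra hp3
  have hsq : ¬ p ^ 2 ∣ Nat.card mclG → ¬ p ∣ Nat.card σ.ker := not_dvd_card_ker_of_sq_not_dvd hσ hp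
  rw [card_mcl] at hsq hpd
  simp only [hp.dvd_mul] at hpd
  rcases hpd with h | (((h | h) | h) | h)
  · obtain rfl := (Nat.prime_dvd_prime_iff_eq hp Nat.prime_two).1 (hp.dvd_of_dvd_pow h)
    exact realises.not_two_dvd two_ok colMcL_table colMcL_solved
      ⟨3 ^ 6 * 5 ^ 3 * 7 * 11, by norm_num, card_mcl⟩ Γ σ hσ hd
  · exact hp3 ((Nat.prime_dvd_prime_iff_eq hp Nat.prime_three).1 (hp.dvd_of_dvd_pow h))
  · obtain rfl := (Nat.prime_dvd_prime_iff_eq hp Nat.prime_five).1 (hp.dvd_of_dvd_pow h)
    exact not_five hσ hd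
  · obtain rfl := (Nat.prime_dvd_prime_iff_eq hp (by norm_num)).1 h
    exact hsq (by norm_num) hd
  · obtain rfl := (Nat.prime_dvd_prime_iff_eq hp (by norm_num)).1 h
    exact hsq (by norm_num) hd

theorem hasCyclicSchurMultiplier_mclG : Cfsg.HasCyclicSchurMultiplier mclG 3 := by
  haveI : Finite mclG := Nat.finite_of_card_ne_zero (by rw [simple_mclG.2]; norm_num)
  haveI : Fact (Nat.Prime 3) := ⟨Nat.prime_three⟩
  obtain ⟨Δ, _, _, τ, hτ, hcard⟩ := exists_cover
  refine ⟨⟨Δ, inferInstance, inferInstance, τ, hτ, ⟨(zmodCyclicMulEquiv (isCyclic_of_prime_card hcard)).symm.trans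
    (AddEquiv.toMultiplicative (ZMod.ringEquivCongr hcard).toAddEquiv)⟩⟩, fun Γ _ _ σ hσ => ?_⟩
  obtain ⟨γ, hγ, hγl⟩ := three_bound hσ three_data
  -- the kernel is a three-group
  have hpow : Nat.card σ.ker = 3 ^ (Nat.card σ.ker).primeFactorsList.length :=
    Nat.eq_prime_pow_of_unique_prime_dvd Nat.card_pos.ne' fun {d} hd hdd => eq_three_of_dvd hσ hd hdd
  have hle : σ.ker ≤ Subgroup.zpowers γ := fun z hz => by
    refine hγl _ (mem_commutator_of_pow_eq_one hσ Nat.prime_three _ index_three hz
      (k := (Nat.card σ.ker).primeFactorsList.length) ?_) hz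
    rw [← hpow]
    exact congrArg Subtype.val (pow_card_eq_one' (x := (⟨z, hz⟩ : σ.ker)))
  have hdvd : Nat.card σ.ker ∣ 3 :=
    (Subgroup.card_dvd_of_le hle).trans (by rw [Nat.card_zpowers]; exact orderOf_dvd_of_pow_eq_one hγ)
  rcases (Nat.dvd_prime Nat.prime_three).1 hdvd with h | h
  · haveI := (Nat.card_eq_one_iff_unique.1 h).1
    exact ⟨1, fun x => ⟨1, Subsingleton.elim _ _⟩⟩
  · exact ⟨((AddEquiv.toMultiplicative (ZMod.ringEquivCongr h).toAddEquiv).symm.trans
      (zmodCyclicMulEquiv (isCyclic_of_prime_card h))).toMonoidHom, MulEquiv.surjective _⟩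

/-- The isomorphism with the McLaughlin group of the definitions. -/
theorem hasCyclicSchurMultiplier_McL : Cfsg.HasCyclicSchurMultiplier ↥Cfsg.Spor.McL 3 := by
  obtain ⟨hn, hd⟩ := sub_baseP_facts
  obtain ⟨g, g1, g2⟩ := pair_transitive sqNorm_baseP hn base_spec.1 base_spec.2.1 (Or.inr (Or.inl rfl)) hd
    base_spec.2.2.1
  have e1 : triGroup baseP ≃* mclG :=
    ((triGroup baseP).equivMapOfInjective (MulAut.conj g).toMonoidHom (MulAut.conj g).injective).trans
      (MulEquiv.subgroupCongr (by
        rw [triGroup_baseP_eq, ← stabilizer_pair_smul, g1, g2]))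
  exact hasSchurMultiplier_congr (e1.symm.trans CfsgLib.McLInv.mclEquiv) hasCyclicSchurMultiplier_mclG

end CfsgLib.McLMult
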