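import Cfsg.Agent.Lib.McLMult.Data
import Cfsg.Agent.Lib.SchurMult.PermCert
import Cfsg.Agent.Lib.Leech.UnitarySix
import Cfsg.Agent.Lib.GolayStructure.ConwaySimple

/-! McL as the stabiliser of two minimal vectors, acting on 275 minimal vectors. -/

set_option autoImplicit false
set_option maxRecDepth 100000

namespace CfsgLib.McLMult

open Cfsg MulAction CfsgLib.Leech CfsgLib.GolayStructure CfsgLib.Fischer2
open CfsgLib.SporRecognition.CosetCert (allBelow allBelow_spec field)
open scoped Pointwise

theorem listW0_mem : memTest listW0 = true := by decide +kernel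

/-- The second minimal vector. -/
noncomputable def vecW0 : leechLattice := ofList listW0 listW0_mem

/-- The group: the joint stabiliser of two minimal vectors of inner product `-8`. -/
noncomputable abbrev mclG : Subgroup Co0 := stabilizer Co0 baseSixV ⊓ stabilizer Co0 vecW0

theorem base_spec : sqNorm (coordVec baseSixV) = 32 ∧ sqNorm (coordVec vecW0) = 32 ∧
    dotInt (coordVec baseSixV) (coordVec vecW0) = -8 ∧
    sqNorm (coordVec (vecW0 + baseSixV)) = 48 ∧
    sqNorm (coordVec (vecW0 + baseSixV) - coordVec baseSixV) = 32 ∧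
    -baseSixW ∈ dotSet2 (vecW0 + baseSixV) baseSixV 24 16 := by
  have e : coordVec (vecW0 + baseSixV) = coordVec vecW0 + coordVec baseSixV := rfl
  have e' : coordVec (-baseSixW) = -coordVec baseSixW := rfl
  simp only [dotSet2, Set.mem_ofPred_eq, e, e', baseSixV, baseSixW, vecW0, coordVec_ofList]
  decide +kernel

theorem simple_mclG : IsSimpleGroup mclG ∧ Nat.card mclG = 898128000 :=
  mcl_simple_order base_spec.1 base_spec.2.1 base_spec.2.2.1

/-- The listed vectors. -/
def orbVecs : List (List ℤ) := orbVec0 ++ orbVec1 ++ orbVec2 ++ orbVec3 ++ orbVec4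

/-- The generator with the given number. -/
def genMat (a : ℕ) : List (List ℤ) := bif a == 0 then genMat0 else genMat1

theorem genMat_ok : (matOk (genMat 0) && matOk (genMat 1) &&
    (fixOk (genMat 0) Cert.UnitarySix.listV && fixOk (genMat 0) listW0) &&
    (fixOk (genMat 1) Cert.UnitarySix.listV && fixOk (genMat 1) listW0)) = true := by decide +kernel

theorem orbVecs_ok : (decide (orbVecs.length = 275) && orbVecs.all memTest &&
    (decide (orbVecs.getD 0 [] = Cert.UnitarySix.listW.map (- ·)))) = true := by decide +kernel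

/-- A number separating the listed vectors. -/
def codeVec (L : List ℤ) : ℕ := L.foldl (fun s a => s * 16 + (a + 8).toNat) 0

/-- No value occurs twice. -/
noncomputable def distinct : List ℕ → Bool
  | [] => true
  | a :: l => (l.all fun b => !Nat.beq a b) && distinct l

theorem nodup_of_distinct : ∀ {l : List ℕ}, distinct l = true → l.Nodup
  | [], _ => List.nodup_nil
  | a :: l, h => by
    simp only [distinct, Bool.and_eq_true, List.all_eq_true, Bool.not_eq_true'] at h
    exact List.nodup_cons.2 ⟨fun hm => Nat.ne_of_beq_eq_false (h.1 a hm) rfl, nodup_of_distinct h.2⟩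

theorem codes_nodup : distinct (orbVecs.map codeVec) = true := by decide +kernel

theorem toVec_map_eight {L : List ℤ} (hl : L.length = 24) (p : GolayPt) :
    toVec (L.map (8 * ·)) p / 8 = toVec L p := by
  have h1 : CfsgLib.Golay.idx p < L.length := by rw [hl]; exact CfsgLib.Golay.idx_lt p
  simp only [toVec]
  rw [List.getD_eq_getElem _ _ (by rw [List.length_map]; exact h1), List.getD_eq_getElem _ _ h1,
    List.getElem_map]
  omega

/-- The table of a generator. -/
noncomputable def genImg (a u : ℕ) : ℕ := field (genTbls.getD a 0) 9 u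

/-- One generator maps one listed vector to the tabulated one. -/
noncomputable def moveOk (a : ℕ) : Bool :=
  allBelow 9 275 fun u => Nat.blt (genImg a u) 275 &&
    decide (applyM (genMat a) (orbVecs.getD u []) = (orbVecs.getD (genImg a u) []).map (8 * ·))

theorem moveOk0 : moveOk 0 = true := by decide +kernel

theorem moveOk1 : moveOk 1 = true := by decide +kernel

/-- The tree visits every place once, each from an earlier one. -/
noncomputable def treeOk : List (ℕ × ℕ × ℕ) → List ℕ → Bool
  | [], seen => (List.range 275).all fun x => seen.contains x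
  | t :: l, seen => Nat.blt t.2.1 2 && seen.contains t.2.2 && Nat.beq (genImg t.2.1 t.2.2) t.1 &&
      treeOk l (t.1 :: seen)

theorem tree_ok : treeOk orbTree [0] = true := by decide +kernel

/-- The generators. -/
noncomputable def gen (a : ℕ) : mclG :=
  if h : a < 2 then
    ⟨matAut (genMat a) (by
      have := genMat_ok; simp only [Bool.and_eq_true] at this
      interval_cases a
      exacts [this.1.1.1, this.1.1.2]), by
      have := genMat_ok; simp only [Bool.and_eq_true] at this
      interval_cases a
      exacts [⟨matAut_fixes _ this.1.2.1 rfl, matAut_fixes _ this.1.2.2 rfl⟩,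
        ⟨matAut_fixes _ this.2.1 rfl, matAut_fixes _ this.2.2 rfl⟩]⟩
  else 1

/-- A listed vector. -/
noncomputable def vecAt (u : Fin 275) : leechLattice :=
  ofList (orbVecs.getD u []) (by
    have h := orbVecs_ok
    simp only [Bool.and_eq_true, decide_eq_true_eq, List.all_eq_true] at h
    rw [List.getD_eq_getElem _ _ (h.1.1.symm ▸ u.2)]
    exact h.1.2 _ (List.getElem_mem _))

theorem vecAt_zero : vecAt ⟨0, by norm_num⟩ = -baseSixW := by
  have h := orbVecs_ok
  simp only [Bool.and_eq_true, decide_eq_true_eq] at h
  refine Subtype.ext ?_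
  show toVec (orbVecs.getD 0 []) = _
  rw [h.2]
  show _ = -toVec Cert.UnitarySix.listW
  funext p
  revert p
  decide +kernel

theorem gen_move (a : ℕ) (ha : a < 2) (u : Fin 275) :
    ∃ h : genImg a u < 275, gen a • vecAt u = vecAt ⟨genImg a u, h⟩ := by
  have hm : moveOk a = true := by
    interval_cases a
    exacts [moveOk0, moveOk1]
  have h := allBelow_spec hm u u.2
  simp only [Bool.and_eq_true, Nat.blt_eq, decide_eq_true_eq] at h
  refine ⟨h.1, Subtype.ext ?_⟩
  rw [gen, dif_pos ha]
  have hlen : ∀ v : Fin 275, (orbVecs.getD v []).length = 24 := fun v => by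
    have h' := orbVecs_ok
    simp only [Bool.and_eq_true, decide_eq_true_eq, List.all_eq_true] at h'
    rw [List.getD_eq_getElem _ _ (h'.1.1.symm ▸ v.2)]
    have := h'.1.2 _ (List.getElem_mem (h'.1.1.symm ▸ v.2 : (v : ℕ) < orbVecs.length))
    simp only [memTest, Bool.and_eq_true, decide_eq_true_eq] at this
    exact this.1
  have hM : matOk (genMat a) = true := by
    have := genMat_ok; simp only [Bool.and_eq_true] at this
    interval_cases a
    exacts [this.1.1.1, this.1.1.2]
  simp only [matOk, Bool.and_eq_true, List.all_eq_true, decide_eq_true_eq] at hM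
  show matAct (genMat a) (toVec (orbVecs.getD u [])) = toVec (orbVecs.getD (genImg a u) [])
  funext p
  rw [matAct, matApply_toVec hM.1.1.1 hM.1.1.2 (hlen u), h.2]
  exact toVec_map_eight (hlen ⟨_, h.1⟩) p

theorem vecAt_mem_orbit (u : Fin 275) : vecAt u ∈ orbit mclG (-baseSixW) := by
  have key : ∀ (l : List (ℕ × ℕ × ℕ)) (seen : List ℕ), treeOk l seen = true →
      (∀ x ∈ seen, ∃ h : x < 275, vecAt ⟨x, h⟩ ∈ orbit mclG (-baseSixW)) →
      ∀ v : Fin 275, vecAt v ∈ orbit mclG (-baseSixW) := by
    intro l
    induction l with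
    | nil =>
      intro seen h hs v
      simp only [treeOk, List.all_eq_true, List.mem_range, List.contains_iff_mem] at h
      obtain ⟨_, hv⟩ := hs _ (h v v.2)
      exact hv
    | cons t l ih =>
      intro seen h hs
      simp only [treeOk, Bool.and_eq_true, Nat.blt_eq, List.contains_iff_mem] at h
      obtain ⟨⟨⟨ha, hsrc⟩, hto⟩, hrest⟩ := h
      refine ih _ hrest fun x hx => ?_
      rcases List.mem_cons.1 hx with rfl | hx
      · obtain ⟨hlt, hv⟩ := hs _ hsrc
        obtain ⟨h', e⟩ := gen_move t.2.1 ha ⟨_, hlt⟩
        have hto' := Nat.eq_of_beq_eq_true hto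
        refine ⟨hto' ▸ h', ?_⟩
        have hv' := (MulAction.mem_orbit_iff.1 hv)
        obtain ⟨g, hg⟩ := hv'
        refine MulAction.mem_orbit_iff.2 ⟨gen t.2.1 * g, ?_⟩
        rw [mul_smul, hg, e]
        congr 2
      · exact hs x hx
  refine key _ _ tree_ok (fun x hx => ?_) u
  rw [List.mem_singleton] at hx
  subst hx
  exact ⟨by norm_num, by rw [vecAt_zero]; exact mem_orbit_self _⟩

theorem vecAt_injective : Function.Injective vecAt := by
  intro u v h
  have hc := codes_nodup
  have hnd : (orbVecs.map codeVec).Nodup := nodup_of_distinct hc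
  have hl : orbVecs.length = 275 := by
    have h' := orbVecs_ok
    simp only [Bool.and_eq_true, decide_eq_true_eq] at h'
    exact h'.1.1
  have e : toVec (orbVecs.getD u []) = toVec (orbVecs.getD v []) := congrArg Subtype.val h
  have hlen : ∀ w : Fin 275, (orbVecs.getD w []).length = 24 := fun w => by
    have h' := orbVecs_ok
    simp only [Bool.and_eq_true, decide_eq_true_eq, List.all_eq_true] at h'
    rw [List.getD_eq_getElem _ _ (hl.symm ▸ w.2)]
    have := h'.1.2 _ (List.getElem_mem (hl.symm ▸ w.2 : (w : ℕ) < orbVecs.length))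
    simp only [memTest, Bool.and_eq_true, decide_eq_true_eq] at this
    exact this.1
  have eL : orbVecs.getD u [] = orbVecs.getD v [] := by
    refine List.ext_getElem (by rw [hlen, hlen]) fun i h1 h2 => ?_
    have := congrFun e (CfsgLib.Golay.pt i)
    simp only [toVec, CfsgLib.Golay.idx_pt (show i < 24 by rw [hlen] at h1; exact h1)] at this
    rwa [List.getD_eq_getElem _ _ h1, List.getD_eq_getElem _ _ h2] at this
  have hu : (u : ℕ) < (orbVecs.map codeVec).length := by rw [List.length_map, hl]; exact u.2
  have hv : (v : ℕ) < (orbVecs.map codeVec).length := by rw [List.length_map, hl]; exact v.2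
  refine Fin.ext ((hnd.getElem_inj_iff (hi := hu) (hj := hv)).1 ?_)
  rw [List.getElem_map, List.getElem_map,
    ← List.getD_eq_getElem _ [] (hl.symm ▸ u.2), ← List.getD_eq_getElem _ [] (hl.symm ▸ v.2), eL]

theorem card_orbit : Nat.card (orbit mclG (-baseSixW)) = 275 := by
  obtain ⟨-, -, -, hu, huv, hx⟩ := base_spec
  have hv := base_spec.1
  have hsub : orbit mclG (-baseSixW) ⊆ dotSet2 (vecW0 + baseSixV) baseSixV 24 16 := by
    rintro _ ⟨g, rfl⟩
    have hg1 : (g : Co0) • baseSixV = baseSixV := g.2.1
    have hg2 : (g : Co0) • vecW0 = vecW0 := g.2.2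
    have := (smul_mem_dotSet2 (g := (g : Co0))).2 hx
    rwa [smul_add_co0, hg1, hg2] at this
  have hn := (mcl275 hu hv huv).1
  have hfin : (dotSet2 (vecW0 + baseSixV) baseSixV 24 16).Finite :=
    Set.finite_of_ncard_pos (by rw [hn]; norm_num)
  haveI : Finite (orbit mclG (-baseSixW)) := (hfin.subset hsub).to_subtype
  refine le_antisymm (by rw [Nat.card_coe_set_eq, ← hn]; exact Set.ncard_le_ncard hsub hfin) ?_
  have := Nat.card_le_card_of_injective (fun u => (⟨vecAt u, vecAt_mem_orbit u⟩ : orbit mclG (-baseSixW)))
    fun u v h => vecAt_injective (congrArg Subtype.val h)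
  rwa [Nat.card_fin] at this

/-- The listed vectors are the orbit. -/
theorem vecAt_bijective : Function.Bijective
    (fun u => (⟨vecAt u, vecAt_mem_orbit u⟩ : orbit mclG (-baseSixW))) := by
  haveI : Finite (orbit mclG (-baseSixW)) := Nat.finite_of_card_ne_zero (by rw [card_orbit]; norm_num)
  refine Function.Injective.bijective_of_nat_card_le
    (fun u v h => vecAt_injective (congrArg Subtype.val h)) ?_
  rw [card_orbit, Nat.card_fin]

/-- The indexing of the orbit. -/
noncomputable def orbEquiv : Fin 275 ≃ orbit mclG (-baseSixW) := Equiv.ofBijective _ vecAt_bijective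

/-- The action on the 275 vectors. -/
noncomputable def perm275 : mclG →* Equiv.Perm (Fin 275) :=
  orbEquiv.symm.permCongrHom.toMonoidHom.comp (MulAction.toPermHom mclG (orbit mclG (-baseSixW)))

theorem perm275_gen (a : ℕ) (ha : a < 2) (u : Fin 275) : ((perm275 (gen a) u : Fin 275) : ℕ) = genImg a u := by
  obtain ⟨h, e⟩ := gen_move a ha u
  have : perm275 (gen a) u = ⟨genImg a u, h⟩ := by
    show orbEquiv.symm (gen a • orbEquiv u) = _
    rw [Equiv.symm_apply_eq]
    exact Subtype.ext e
  rw [this]

theorem perm275_injective : Function.Injective perm275 := by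
  haveI := simple_mclG.1
  rw [← MonoidHom.ker_eq_bot_iff]
  refine (Subgroup.Normal.eq_bot_or_eq_top (H := perm275.ker) inferInstance).resolve_right fun htop => ?_
  have h1 : perm275 (gen 0) = 1 := MonoidHom.mem_ker.1 (show gen 0 ∈ perm275.ker by
    rw [htop]; exact Subgroup.mem_top _)
  have h2 : (List.range 275).all (fun u => genImg 0 u == u) = true := by
    simp only [List.all_eq_true, List.mem_range, beq_iff_eq]
    intro u hu
    rw [← perm275_gen 0 (by norm_num) ⟨u, hu⟩, h1]
    rfl
  exact absurd h2 (by decide +kernel)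

end CfsgLib.McLMult
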