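import Cfsg.Agent.Lib.McLMult.Lift
import Cfsg.Agent.Lib.McLMult.LiftData

/-!
The triple cover of McL: two commuting elements of order `3` whose lifts over their five common
fixed points have commutators with nontrivial product.
-/

set_option autoImplicit false
set_option maxRecDepth 100000

namespace CfsgLib.McLMult

open Cfsg MulAction CfsgLib.Leech CfsgLib.Fischer2 CfsgLib.ClassicalForms CfsgLib.SchurMult
open CfsgLib.SchurMult.PermCert CfsgLib.GolayStructure
open CfsgLib.SporRecognition.CosetCert (allBelow allBelow_spec)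
open scoped Pointwise commutatorElement

/-- The fast data of the six transvections. -/
def data6 : ℕ → List ℕ × ℕ
  | 0 => Cert.UnitarySix.data0
  | 1 => Cert.UnitarySix.data1
  | 2 => Cert.UnitarySix.data2
  | 3 => Cert.UnitarySix.data3
  | 4 => Cert.UnitarySix.data4
  | _ => Cert.UnitarySix.data5

theorem data6_ok : ∀ i, dataOk (mat6 i) (data6 i) = true
  | 0 => Cert.UnitarySix.dataOk0
  | 1 => Cert.UnitarySix.dataOk1
  | 2 => Cert.UnitarySix.dataOk2
  | 3 => Cert.UnitarySix.dataOk3
  | 4 => Cert.UnitarySix.dataOk4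
  | _ + 5 => Cert.UnitarySix.dataOk5

/-- The key of the image of a key under a word of transvections. -/
noncomputable def chainKey (w : List ℕ) (k : ℕ) : ℕ :=
  List.rec k (fun i _ ih => stepKey (data6 i) ih) w

theorem key_lprod_g6 : ∀ (w : List ℕ) {v : leechLattice}, sqNorm (coordVec v) = 32 →
    chainKey w (key v) = key (lprod g6 w • v)
  | [], v, _ => by simp [chainKey, lprod]
  | i :: w, v, hv => by
    show stepKey (data6 i) (chainKey w (key v)) = _
    rw [key_lprod_g6 w hv, lprod, mul_smul]
    exact key_matAut (mat6_ok i) (data6_ok i) (by rw [sqNorm_smul', hv])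

theorem key_ofList {L : List ℤ} (h : memTest L = true) : key (ofList L h) = keyL L := by
  have hl : L.length = 24 := by
    simp only [memTest, Bool.and_eq_true, decide_eq_true_eq] at h
    exact h.1
  rw [key]
  congr 1
  refine List.ext_getElem (by simp [ofVec, hl]) fun i h1 h2 => ?_
  simp only [ofVec, List.getElem_map, List.getElem_range, coordVec_ofList, toVec]
  rw [CfsgLib.Golay.idx_pt (by omega), List.getD_eq_getElem _ _ h2]

theorem sqNorm_vecAt (u : Fin 275) : sqNorm (coordVec (vecAt u)) = 32 := by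
  obtain ⟨g, hg⟩ := vecAt_mem_orbit u
  have h : (g : Co0) • (-baseSixW) = vecAt u := hg
  rw [← h, sqNorm_smul', ← dotInt_self,
    show coordVec (-baseSixW) = -coordVec baseSixW from rfl, dotInt_neg_right, dotInt_comm',
    dotInt_neg_right, neg_neg, dotInt_self]
  exact baseSix_spec.2.1

/-- The image of a point under the permutation of lift number `j`. -/
noncomputable def liftImg (j u : ℕ) : ℕ :=
  CfsgLib.SporRecognition.CosetCert.field (liftTbls.getD j 0) 9 u

/-- The check of one lift: it fixes the second base vector and acts on the 275 vectors as the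
conjugate `k⁻¹ x k`. -/
noncomputable def liftCheck (j k x : ℕ) (lw : List ℕ) : Bool :=
  Nat.beq (chainKey lw (keyL listW0)) (keyL listW0) && allBelow 9 275 fun u =>
    Nat.blt (liftImg j u) 275 &&
      Nat.beq (chainKey lw (keyL (orbVecs.getD u []))) (keyL (orbVecs.getD (liftImg j u) [])) &&
      Nat.beq (mclTables.img k (liftImg j u)) (mclTables.img x (mclTables.img k u))

theorem lift_spec {j k x : ℕ} {lw : List ℕ} (hk : k < eltTbls.length) (hx : x < eltTbls.length)
    (h : liftCheck j k x lw = true) :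
    lprod g6 lw = ((el k)⁻¹ * el x * el k : mclG) := by
  simp only [liftCheck, Bool.and_eq_true] at h
  obtain ⟨hW, hall⟩ := h
  have hfixV : lprod g6 lw • baseSixV = baseSixV := by
    induction lw with
    | nil => exact one_smul _ _
    | cons i w ih =>
      clear ih hW hall
      have : ∀ w : List ℕ, lprod g6 w ∈ fixGroup [baseSixW, baseSixV] := fun w =>
        Tables.lprod_mem fun l _ => g6_mem l
      exact this (i :: w) baseSixV (by simp)
  have hW0 : lprod g6 lw • vecW0 = vecW0 := by
    refine key_injective (by rw [sqNorm_smul', base_spec.2.1]) base_spec.2.1 ?_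
    rw [← key_lprod_g6 lw base_spec.2.1, show key vecW0 = keyL listW0 from key_ofList _]
    exact Nat.eq_of_beq_eq_true hW
  let g : mclG := ⟨lprod g6 lw, hfixV, hW0⟩
  have hg : el k * g = el x * el k := by
    refine perm275_injective (Equiv.ext fun u => Fin.ext ?_)
    have h := allBelow_spec hall u u.2
    simp only [Bool.and_eq_true, Nat.blt_eq] at h
    obtain ⟨⟨hlt, hkey⟩, himg⟩ := h
    have hgu : perm275 g u = ⟨liftImg j u, hlt⟩ := by
      show orbEquiv.symm (g • orbEquiv u) = _
      rw [Equiv.symm_apply_eq]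
      refine Subtype.ext (key_injective ?_ (sqNorm_vecAt _) ?_)
      · show sqNorm (coordVec (lprod g6 lw • vecAt u)) = 32
        rw [sqNorm_smul', sqNorm_vecAt]
      · show key (lprod g6 lw • vecAt u) = key (vecAt ⟨liftImg j u, hlt⟩)
        rw [← key_lprod_g6 lw (sqNorm_vecAt u), vecAt, vecAt, key_ofList, key_ofList]
        exact Nat.eq_of_beq_eq_true hkey
    rw [map_mul, map_mul, Equiv.Perm.mul_apply, Equiv.Perm.mul_apply, hgu, realises.img k hk,
      realises.img x hx, realises.img k hk]
    exact Nat.eq_of_beq_eq_true himg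
  have e : g = (el k)⁻¹ * el x * el k := by rw [mul_assoc, ← hg, inv_mul_cancel_left]
  exact congrArg Subtype.val e

/-- The fixed point with number `i`. -/
def fixAt (i : Fin 5) : ℕ := fixedPts.getD i 0

theorem lifts_ok :
    liftCheck 0 34 32 (liftA.getD 0 []) = true ∧
    liftCheck 1 35 32 (liftA.getD 1 []) = true ∧
    liftCheck 2 36 32 (liftA.getD 2 []) = true ∧
    liftCheck 3 37 32 (liftA.getD 3 []) = true ∧
    liftCheck 4 38 32 (liftA.getD 4 []) = true ∧
    liftCheck 5 34 33 (liftB.getD 0 []) = true ∧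
    liftCheck 6 35 33 (liftB.getD 1 []) = true ∧
    liftCheck 7 36 33 (liftB.getD 2 []) = true ∧
    liftCheck 8 37 33 (liftB.getD 3 []) = true ∧
    liftCheck 9 38 33 (liftB.getD 4 []) = true := by decide +kernel

theorem wit_rels : mclTables.sameWord [32, 33] [33, 32] = true ∧
    mclTables.sameWord (Tables.rep 32 3) [] = true ∧ mclTables.sameWord (Tables.rep 33 3) [] = true := by
  decide +kernel

theorem fixed_ok :
    (allBelow 9 275 fun u => !(Nat.beq (mclTables.img 32 u) u && Nat.beq (mclTables.img 33 u) u) ||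
      fixedPts.contains u) = true ∧
    (∀ i : Fin 5, fixAt i < 275 ∧ mclTables.img 32 (fixAt i) = fixAt i ∧
      mclTables.img 33 (fixAt i) = fixAt i ∧ mclTables.img (34 + i) 0 = fixAt i) ∧
    fixedPts.length = 5 ∧ fixedPts.Nodup := by decide +kernel

theorem smul_orbEquiv (g : mclG) (u : Fin 275) : g • orbEquiv u = orbEquiv (perm275 g u) :=
  (orbEquiv.apply_symm_apply _).symm

/-- The transvection words of all five commutators. -/
def totalWord : List ℕ :=
  ((List.range 5).map fun i => liftA.getD i [] ++ liftB.getD i [] ++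
    (liftA.getD i []).reverse ++ (liftB.getD i []).reverse).flatten

/-- The image of a code under a word of transvections. -/
def runTv (w : List ℕ) (x : ℕ) : ℕ := w.foldr (fun i y => ops4.trans 6 1 (Cert.UnitarySix.pt i) y) x

theorem total_ok : runTv totalWord 1 ≠ 1 ∧ (∀ i ∈ totalWord, i < 6) ∧ runTv totalWord 1 < 4 ^ 6 := by
  decide +kernel

theorem vec_ne {F : Type} [Field F] (C : Coded ops4 F 2) {x y : ℕ} (hx : x < 4 ^ 6) (hy : y < 4 ^ 6)
    (h : C.vec 6 x = C.vec 6 y) : x = y := by
  have e : ∀ j : Fin 6, x / 4 ^ (j : ℕ) % 4 = y / 4 ^ (j : ℕ) % 4 := fun j =>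
    C.inj _ (Nat.mod_lt _ C.pos) _ (Nat.mod_lt _ C.pos) (congrFun h j)
  have e0 := e 0; have e1 := e 1; have e2 := e 2; have e3 := e 3; have e4 := e 4; have e5 := e 5
  simp only [Fin.val_zero, Fin.val_one, Fin.val_two, pow_zero, Nat.div_one, pow_one,
    show ((3 : Fin 6) : ℕ) = 3 from rfl, show ((4 : Fin 6) : ℕ) = 4 from rfl,
    show ((5 : Fin 6) : ℕ) = 5 from rfl] at e0 e1 e2 e3 e4 e5
  norm_num at e2 e3 e4 e5 hx hy
  omega

theorem comp_lprod {F : Type} [Field F] [Fintype F] {C : Coded ops4 F 2} {t : ℕ → Cfsg.SU 6 F 2}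
    (ht : Tv C t) : ∀ w : List ℕ, (∀ i ∈ w, i < 6) → Comp C (lprod t w) (lprod g6 w)
  | [], _ => Compatible.one
  | i :: w, hw => Compatible.mul (ht.comp i (hw i List.mem_cons_self))
      (comp_lprod ht w fun l hl => hw l (List.mem_cons_of_mem _ hl))

/-- The elements of McL fixing the base point, inside the group of the lattice. -/
noncomputable def pointStab : Subgroup Co0 := mclG ⊓ stabilizer Co0 (-baseSixW)

theorem coe_mem_pointStab {g : mclG}
    (h : g • (⟨-baseSixW, mem_orbit_self _⟩ : orbit mclG (-baseSixW)) = ⟨-baseSixW, mem_orbit_self _⟩) :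
    (g : Co0) ∈ pointStab :=
  Subgroup.mem_inf.2 ⟨g.2, mem_stabilizer_iff.2 (congrArg Subtype.val h)⟩

theorem orbEquiv_zero : (⟨-baseSixW, mem_orbit_self _⟩ : orbit mclG (-baseSixW)) = orbEquiv ⟨0, by norm_num⟩ :=
  Subtype.ext vecAt_zero.symm

attribute [local irreducible] el orbEquiv perm275 Cert.UnitarySix.bas Cert.UnitarySix.K

/-- A stem extension of McL with kernel of order `3`. -/
theorem exists_cover : ∃ (Δ : Type) (_ : Group Δ) (_ : Finite Δ) (τ : Δ →* mclG),
    Cfsg.IsStemExtension τ ∧ Nat.card τ.ker = 3 := by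
  classical
  haveI : Fact (Nat.Prime 2) := ⟨Nat.prime_two⟩
  let F := GaloisField 2 2
  letI : Fintype F := Fintype.ofFinite _
  have hF : Fintype.card F = 4 := by
    rw [Fintype.card_eq_nat_card, GaloisField.card 2 2 (by norm_num)]; norm_num
  obtain ⟨C⟩ := exists_coded4 hF
  obtain ⟨t, ht⟩ := exists_tvs hF C
  haveI := finite_Co0
  haveI : Finite (orbit mclG (-baseSixW)) := Finite.of_equiv _ orbEquiv
  letI : Fintype (orbit mclG (-baseSixW)) := Fintype.ofFinite _
  let S0 : Subgroup Co0 := pointStab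
  let E : Subgroup (Co0 × Cfsg.SU 6 F 2) := pairs C ⊓ S0.prod ⊤
  let π : E →* mclG := ((MonoidHom.fst _ _).comp E.subtype).codRestrict mclG fun x => x.2.2.1.1
  let x₀ : orbit mclG (-baseSixW) := ⟨-baseSixW, mem_orbit_self _⟩
  have htr : ∀ y : orbit mclG (-baseSixW), ∃ g : mclG, g • x₀ = y := fun y => by
    obtain ⟨g, hg⟩ := y.2
    exact ⟨g, Subtype.ext hg⟩
  have hrange : π.range = stabilizer mclG x₀ := by
    ext g
    constructor
    · rintro ⟨x, rfl⟩
      exact Subtype.ext x.2.2.1.2
    · intro hg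
      have hg' : (g : Co0) • (-baseSixW) = -baseSixW := congrArg Subtype.val hg
      have hfix : (g : Co0) ∈ fixGroup [baseSixW, baseSixV] := by
        intro w hw
        simp only [List.mem_cons, List.not_mem_nil, or_false] at hw
        rcases hw with rfl | rfl
        · rw [smul_neg_co0] at hg'
          exact neg_injective hg'
        · exact g.2.1
      obtain ⟨s, hs⟩ := exists_lift hF ht hfix
      exact ⟨⟨((g : Co0), s), hs, ⟨g.2, hg'⟩, trivial⟩, rfl⟩
  have hker1 : ∀ x : E, x ∈ π.ker → (x : Co0 × Cfsg.SU 6 F 2).1 = 1 ∧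
      (x : Co0 × Cfsg.SU 6 F 2).2 ∈ Subgroup.center (Cfsg.SU 6 F 2) := fun x hx => by
    have h1 : (x : Co0 × Cfsg.SU 6 F 2).1 = 1 := congrArg Subtype.val (MonoidHom.mem_ker.1 hx)
    have h2 : Comp C (x : Co0 × Cfsg.SU 6 F 2).2 (x : Co0 × Cfsg.SU 6 F 2).1 := x.2.1
    rw [h1] at h2
    exact ⟨h1, mem_center_of_comp_one hF ht h2⟩
  have hc : π.ker ≤ Subgroup.center E := fun x hx => by
    obtain ⟨h1, h2⟩ := hker1 x hx
    rw [Subgroup.mem_center_iff]
    intro y
    refine Subtype.ext (Prod.ext ?_ ?_)
    · show (y : Co0 × Cfsg.SU 6 F 2).1 * (x : Co0 × Cfsg.SU 6 F 2).1 = _ * _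
      rw [h1, mul_one, one_mul]
    · exact Subgroup.mem_center_iff.1 h2 _
  -- the elements of the witness
  have hlift : ∀ j k x lw, k < eltTbls.length → x < eltTbls.length → liftCheck j k x lw = true →
      (∀ i ∈ lw, i < 6) → el x • el k • x₀ = el k • x₀ →
      ∃ e : E, π e = (el k)⁻¹ * el x * el k ∧ (e : Co0 × Cfsg.SU 6 F 2).2 = lprod t lw := by
    intro j k x lw hk hx hcheck hlw hfx
    have e := lift_spec hk hx hcheck
    have hp : (lprod g6 lw, lprod t lw) ∈ pairs C := mem_pairs.2 (comp_lprod ht lw hlw)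
    have hS : lprod g6 lw ∈ S0 := by
      rw [e]
      exact coe_mem_pointStab (show ((el k)⁻¹ * el x * el k) • x₀ = x₀ by
        rw [mul_smul, mul_smul, hfx, inv_smul_smul])
    exact ⟨⟨(lprod g6 lw, lprod t lw), hp, hS, trivial⟩, Subtype.ext e, rfl⟩
  have hlen : ∀ i : Fin 5, 34 + (i : ℕ) < eltTbls.length ∧ (∀ j ∈ liftA.getD i [], j < 6) ∧
      (∀ j ∈ liftB.getD i [], j < 6) := by decide +kernel
  obtain ⟨hfix, hfx, hflen, hnd⟩ := fixed_ok
  have himg : ∀ k < eltTbls.length, ∀ u : Fin 275, ∀ v : Fin 275, mclTables.img k u = v →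
      el k • orbEquiv u = orbEquiv v := fun k hk u v h => by
    rw [smul_orbEquiv]
    congr 1
    exact Fin.ext ((realises.img k hk u).trans h)
  let p : Fin 5 → orbit mclG (-baseSixW) := fun i => orbEquiv ⟨fixAt i, (hfx i).1⟩
  have hx0 : x₀ = orbEquiv ⟨0, by norm_num⟩ := orbEquiv_zero
  have hp : ∀ i, el 32 • p i = p i ∧ el 33 • p i = p i ∧ el (34 + (i : ℕ)) • x₀ = p i := fun i =>
    ⟨himg 32 (by decide +kernel) _ _ (hfx i).2.1, himg 33 (by decide +kernel) _ _ (hfx i).2.2.1,
      by rw [hx0]; exact himg _ (hlen i).1 _ _ (hfx i).2.2.2⟩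
  have hA : ∀ i : Fin 5, liftCheck i (34 + i) 32 (liftA.getD i []) = true ∧
      liftCheck (5 + i) (34 + i) 33 (liftB.getD i []) = true := by
    obtain ⟨a0, a1, a2, a3, a4, b0, b1, b2, b3, b4⟩ := lifts_ok
    intro i
    fin_cases i
    exacts [⟨a0, b0⟩, ⟨a1, b1⟩, ⟨a2, b2⟩, ⟨a3, b3⟩, ⟨a4, b4⟩]
  choose ea hea1 hea2 using fun i : Fin 5 => hlift i (34 + i) 32 _ (hlen i).1 (by decide +kernel) (hA i).1
    (hlen i).2.1 (by rw [(hp i).2.2]; exact (hp i).1)
  choose eb heb1 heb2 using fun i : Fin 5 => hlift (5 + i) (34 + i) 33 _ (hlen i).1 (by decide +kernel) (hA i).2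
    (hlen i).2.2 (by rw [(hp i).2.2]; exact (hp i).2.1)
  have hne : ((List.finRange 5).map fun i => ⁅ea i, eb i⁆).prod ≠ 1 := by
    intro h
    obtain ⟨hne, hsmall, hlt⟩ := total_ok
    have hrev : ∀ w : List ℕ, (∀ i ∈ w, i < 6) → (lprod t w)⁻¹ = lprod t w.reverse := by
      have hc : (1 : ℕ) < ops4.K := by decide
      have hinvol : ∀ i < 6, t i * t i = 1 := by
        intro i hi
        refine suAct_ext fun x => ?_
        obtain ⟨σ⟩ := exists_conj (F := F) (q := 2) (by rw [Nat.card_eq_fintype_card, hF]; norm_num)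
        have hpp : Cfsg.hermForm 6 F 2 (C.vec 6 (Cert.UnitarySix.pt i)) (C.vec 6 (Cert.UnitarySix.pt i)) = 0 := by
          rw [C.herm_vec, show ops4.herm 6 (Cert.UnitarySix.pt i) (Cert.UnitarySix.pt i) = 0 from
            (show ∀ i < 6, ops4.herm 6 (Cert.UnitarySix.pt i) (Cert.UnitarySix.pt i) = 0 by
              decide +kernel) i hi, C.val_zero]
        have htwo : ∀ y : F, y + y = 0 := fun y => CharTwo.add_self_eq_zero y
        rw [suAct_mul, ht.act i hi x, ht.act i hi, σ.add_left, σ.smul_left, hpp, mul_zero, add_zero,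
          suAct_one, add_assoc, ← add_smul, htwo, zero_smul, add_zero]
      intro w hw
      induction w with
      | nil => simp [lprod]
      | cons i w ih =>
        have hi : i < 6 := hw i List.mem_cons_self
        rw [List.reverse_cons, lprod_append, lprod, mul_inv_rev, ih fun j hj => hw j (List.mem_cons_of_mem _ hj)]
        congr 1
        rw [lprod, lprod, mul_one]
        exact inv_eq_of_mul_eq_one_right (hinvol i hi)
    let snd : E →* Cfsg.SU 6 F 2 := (MonoidHom.snd _ _).comp E.subtype
    have h2 := congrArg snd h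
    rw [map_list_prod, List.map_map, map_one] at h2
    have hsnd : ∀ i, snd ⁅ea i, eb i⁆ = lprod t (liftA.getD i [] ++ liftB.getD i [] ++
        (liftA.getD i []).reverse ++ (liftB.getD i []).reverse) := by
      intro i
      rw [map_commutatorElement, commutatorElement_def, show snd (ea i) = _ from hea2 i,
        show snd (eb i) = _ from heb2 i, hrev _ (hlen i).2.1, hrev _ (hlen i).2.2]
      simp only [lprod_append]
    have htot : lprod t totalWord = 1 := by
      rw [← h2]
      simp only [totalWord, List.range, List.range.loop, List.map_cons, List.map_nil, List.flatten_cons,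
        List.flatten_nil, List.append_nil, List.finRange_succ, List.finRange_zero, List.prod_cons,
        List.prod_nil, mul_one, Function.comp_apply, hsnd, lprod_append, mul_assoc]
      rfl
    have hrun : ∀ w : List ℕ, (∀ i ∈ w, i < 6) → ∀ x,
        suAct (lprod t w) (C.vec 6 x) = C.vec 6 (runTv w x) := by
      intro w
      induction w with
      | nil => intro _ x; rw [lprod, suAct_one]; rfl
      | cons i w ih =>
        intro hw x
        have hc : (1 : ℕ) < ops4.K := by decide
        rw [lprod, suAct_mul, ih fun j hj => hw j (List.mem_cons_of_mem _ hj),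
          ht.act i (hw i List.mem_cons_self)]
        show _ = C.vec 6 (ops4.trans 6 1 (Cert.UnitarySix.pt i) (runTv w x))
        rw [Ops.trans, C.vec_vadd, C.vec_vsmul (C.ml_lt hc (C.herm_lt ..)),
          C.val_ml _ hc _ (C.herm_lt ..), C.herm_vec]
    have := hrun totalWord hsmall 1
    rw [htot, suAct_one] at this
    exact hne (vec_ne C hlt (by norm_num) this.symm)
  have hKcard : Nat.card π.ker = 3 := by
    have hd : Nat.card π.ker ∣ 3 := by
      have h3 : Nat.card (Subgroup.center (Cfsg.SU 6 F 2)) = 3 := by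
        rw [card_center_su (by rw [Nat.card_eq_fintype_card, hF]; norm_num) (by norm_num)]
        decide
      rw [← h3]
      refine Subgroup.card_dvd_of_injective
        (f := (((MonoidHom.snd _ _).comp E.subtype).comp π.ker.subtype).codRestrict _
          fun x => (hker1 x x.2).2) fun x y h => ?_
      exact Subtype.ext (Subtype.ext (Prod.ext ((hker1 x x.2).1.trans (hker1 y y.2).1.symm)
        (congrArg Subtype.val h)))
    refine ((Nat.dvd_prime Nat.prime_three).1 hd).resolve_left fun h1 => hne ?_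
    have hbot : π.ker = ⊥ := Subgroup.eq_bot_of_card_eq _ h1
    have hinj : Function.Injective π := (MonoidHom.ker_eq_bot_iff π).1 hbot
    refine List.prod_eq_one fun z hz => ?_
    obtain ⟨i, -, rfl⟩ := List.mem_map.1 hz
    refine hinj ?_
    rw [map_commutatorElement, map_one, hea1, heb1, commutatorElement_eq_one_iff_mul_comm]
    have hcomm := realises.eq_of_sameWord wit_rels.1
    simp only [lprod, mul_one] at hcomm
    calc (el (34 + (i : ℕ)))⁻¹ * el 32 * el (34 + (i : ℕ)) * ((el (34 + (i : ℕ)))⁻¹ * el 33 * el (34 + (i : ℕ)))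
        = (el (34 + (i : ℕ)))⁻¹ * (el 32 * el 33) * el (34 + (i : ℕ)) := by group
      _ = _ := by rw [hcomm]; group
  have hcube : el 32 ^ 3 = 1 ∧ el 33 ^ 3 = 1 := by
    have a := realises.eq_of_sameWord wit_rels.2.1
    have b := realises.eq_of_sameWord wit_rels.2.2
    simp only [Tables.lprod_rep, lprod] at a b
    exact ⟨a, b⟩
  have hab : Commute (el 32) (el 33) := by
    have h := realises.eq_of_sameWord wit_rels.1
    simp only [lprod, mul_one] at h
    exact h
  have hpinj : Function.Injective p := fun i j h => by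
    have h' : fixAt i = fixAt j := congrArg Fin.val (orbEquiv.injective h)
    simp only [fixAt] at h'
    rw [List.getD_eq_getElem _ _ (hflen.symm ▸ i.2), List.getD_eq_getElem _ _ (hflen.symm ▸ j.2)] at h'
    exact Fin.ext (hnd.getElem_inj_iff.1 h')
  have hall : ∀ y, el 32 • y = y → el 33 • y = y → y ∈ Set.range p := fun y ha hb => by
    obtain ⟨u, rfl⟩ := orbEquiv.surjective y
    rw [smul_orbEquiv] at ha hb
    have ha' : mclTables.img 32 u = u := by
      rw [← realises.img 32 (by decide +kernel) u, orbEquiv.injective ha]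
    have hb' : mclTables.img 33 u = u := by
      rw [← realises.img 33 (by decide +kernel) u, orbEquiv.injective hb]
    have h := allBelow_spec hfix u u.2
    simp only [ha', hb', Nat.beq_refl, Bool.and_self, Bool.not_true, Bool.false_or,
      List.contains_iff_mem] at h
    obtain ⟨i, hi, e⟩ := List.mem_iff_getElem.1 h
    refine ⟨⟨i, hflen ▸ hi⟩, ?_⟩
    show orbEquiv _ = orbEquiv u
    congr 1
    refine Fin.ext ?_
    show fixedPts.getD i 0 = u
    rw [List.getD_eq_getElem _ _ hi, e]
  obtain ⟨W, N, _, τ, hτ, hcard⟩ := Transfer.exists_cover π x₀ htr hrange hc hKcard hab hcube.1 hcube.2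
    p hpinj hall (fun i => ⟨(hp i).1, (hp i).2.1⟩) (fun i => el (34 + (i : ℕ))) (fun i => (hp i).2.2)
    ea eb hea1 heb1 (List.finRange 5) (List.nodup_finRange 5) (List.mem_finRange) hne
  exact ⟨W ⧸ N, inferInstance, inferInstance, τ, hτ, hcard⟩

end CfsgLib.McLMult
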